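import Cfsg.Agent.L.KE

/-! Classes of subgroups of a normal subgroup and their fusion. -/

set_option autoImplicit false

namespace L
open H14 Cfsg Subgroup

noncomputable def cjR (ys rs : List Word) (s : Word) (cs : List (Nat × Word × Word)) (n : Nat) : Prs :=
  List.map (fun i => (fun c : Nat × Word × Word =>
    (List.append (flat ys (getL [] rs i)) (List.append s (flat ys c.2.1)),
      List.append (List.append s (flat ys c.2.1)) (flat [flat ys (getL [] rs c.1)] c.2.2)))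
    (getL (0, [], []) cs i)) (List.range n)

variable {G G' : Type*} [Group G] [Group G']

/-- `Y` lists the `H`-classes of subgroups of `K` of order `p` -/
def CL (K H : Subgroup G) (p : ℕ) {n : ℕ} (Y : Fin n → Subgroup G) : Prop :=
  (∀ i, Y i ≤ K ∧ Nat.card (Y i) = p) ∧ (∀ i j, (∃ g ∈ H, CjA g (Y i) (Y j)) → i = j) ∧
    ∀ X ≤ K, Nat.card X = p → ∃ i, ∃ g ∈ H, CjA g X (Y i)

theorem cjA_map {ψ : G →* G'} (h : Function.Injective ψ) {g : G} {X Y : Subgroup G} :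
    CjA (ψ g) (X.map ψ) (Y.map ψ) ↔ CjA g X Y := by
  unfold CjA
  rw [← (map_injective h).eq_iff, map_map, map_map]
  exact Eq.congr_left (congrArg X.map (MonoidHom.ext fun x => by simp))

theorem CL.map_iff {ψ : G →* G'} (h : Function.Injective ψ) {K H : Subgroup G} {p n : ℕ} {Y : Fin n → Subgroup G} :
    CL (K.map ψ) (H.map ψ) p (fun i => (Y i).map ψ) ↔ CL K H p Y := by
  have k : ∀ X Y : Subgroup G, (∃ g ∈ H.map ψ, CjA g (X.map ψ) (Y.map ψ)) ↔ ∃ g ∈ H, CjA g X Y := fun X Y =>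
    ⟨fun ⟨_, ⟨g, hg, e⟩, c⟩ => ⟨g, hg, (cjA_map h).1 (e ▸ c)⟩, fun ⟨g, hg, c⟩ => ⟨_, ⟨g, hg, rfl⟩, (cjA_map h).2 c⟩⟩
  simp only [CL, k, map_le_map_iff_of_injective h, card_map_of_injective h]
  refine and_congr_right' (and_congr_right' ⟨fun a X hX c => ?_, fun a X hX c => ?_⟩)
  · simpa only [k] using a _ (map_mono hX) ((card_map_of_injective h).trans c)
  · obtain ⟨X, rfl⟩ : ∃ Z : Subgroup G, Z.map ψ = X := ⟨_, map_comap_eq_self (hX.trans (map_le_range _ _))⟩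
    simpa only [k] using a X ((map_le_map_iff_of_injective h).1 hX) ((card_map_of_injective h).symm.trans c)

theorem CL.fuse {K H : Subgroup G} {p n m : ℕ} {Y : Fin n → Subgroup G} (h : CL K K p Y) (hK : K ≤ H)
    (hn : H ≤ normalizer (K : Set G)) {s t : G} (hs : s ∈ H) (ht : t ∈ H) (hH : H ≤ K ⊔ closure {s, t})
    {σ τ : Fin n → Fin n} (h1 : ∀ i, ∃ k ∈ K, CjA (k * s) (Y i) (Y (σ i)))
    (h2 : ∀ i, ∃ k ∈ K, CjA (k * t) (Y i) (Y (τ i))) (f : Fin n → Fin m) (r : Fin m → Fin n)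
    (h3 : (∀ a, f (r a) = a) ∧ ∀ i, (f (σ i) = f i ∧ f (τ i) = f i) ∧
      r (f i) ∈ [i, σ i, τ i, σ (σ i), σ (τ i), τ (σ i), τ (τ i)]) : CL K H p fun a => Y (r a) := by
  let T : Subgroup G :=
    { carrier := {g | g ∈ H ∧ ∀ i j, (∃ k ∈ K, CjA (k * g) (Y i) (Y j)) → f i = f j}
      one_mem' := ⟨one_mem _, fun i j ⟨k, hk, c⟩ => congrArg f (h.2.1 i j ⟨k, hk, mul_one k ▸ c⟩)⟩
      mul_mem' := fun {a b} ha hb => ⟨mul_mem ha.1 hb.1, fun i j ⟨k, hk, c⟩ => by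
        obtain ⟨l, k', hk', c'⟩ := h.2.2 ((Y i).map (MulAut.conj b).toMonoidHom)
          (by rintro _ ⟨y, hy, rfl⟩; exact (hn hb.1 y).1 ((h.1 i).1 hy)) ((card_map_conj _ _).trans (h.1 i).2)
        have c1 := CjA.trans rfl c'
        refine (hb.2 i l ⟨k', hk', c1⟩).trans (ha.2 l j ⟨_, mul_mem hk ((hn ha.1 _).1 (inv_mem hk')), ?_⟩)
        convert c1.symm.trans c using 1
        group⟩
      inv_mem' := fun {a} ha => ⟨inv_mem ha.1, fun i j ⟨k, hk, c⟩ =>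
        (ha.2 j i ⟨_, (hn ha.1 _).1 (inv_mem hk), by convert c.symm using 1; group⟩).symm⟩ }
  have g1 : ∀ {s : G} {σ : Fin n → Fin n}, s ∈ H → (∀ i, ∃ k ∈ K, CjA (k * s) (Y i) (Y (σ i))) →
      (∀ i, f (σ i) = f i) → s ∈ T := fun {s σ} hs h1 h3 => ⟨hs, fun i j ⟨k, hk, c⟩ => by
    obtain ⟨k', hk', c'⟩ := h1 i
    rw [← h3 i, h.2.1 (σ i) j ⟨_, mul_mem hk (inv_mem hk'), by convert c'.symm.trans c using 1; group⟩]⟩
  have g2 : H ≤ T := hH.trans (sup_le (fun k hk => ⟨hK hk, fun i j ⟨k', hk', c⟩ =>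
    congrArg f (h.2.1 i j ⟨_, mul_mem hk' hk, c⟩)⟩) ((closure_le _).2 (Set.pair_subset
      (g1 hs h1 fun i => (h3.2 i).1.1) (g1 ht h2 fun i => (h3.2 i).1.2))))
  refine ⟨fun a => h.1 _, fun a b ⟨g, hg, c⟩ => ?_, fun X hX c => ?_⟩
  · rw [← h3.1 a, (g2 hg).2 _ _ ⟨1, one_mem _, (one_mul g).symm ▸ c⟩, h3.1]
  · obtain ⟨i, k, hk, c⟩ := h.2.2 X hX c
    have a1 : ∀ {i}, (∃ g ∈ H, CjA g X (Y i)) → ∃ g ∈ H, CjA g X (Y (σ i)) := fun ⟨g, hg, c⟩ =>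
      let ⟨k, hk, c'⟩ := h1 _; ⟨_, mul_mem (mul_mem (hK hk) hs) hg, c.trans c'⟩
    have a2 : ∀ {i}, (∃ g ∈ H, CjA g X (Y i)) → ∃ g ∈ H, CjA g X (Y (τ i)) := fun ⟨g, hg, c⟩ =>
      let ⟨k, hk, c'⟩ := h2 _; ⟨_, mul_mem (mul_mem (hK hk) ht) hg, c.trans c'⟩
    have a0 : ∃ g ∈ H, CjA g X (Y i) := ⟨k, hK hk, c⟩
    refine ⟨f i, ?_⟩
    beta_reduce
    have := (h3.2 i).2
    simp only [List.mem_cons, List.not_mem_nil, or_false] at this
    rcases this with e | e | e | e | e | e | e <;> rw [e]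
    exacts [a0, a1 a0, a2 a0, a1 (a1 a0), a1 (a2 a0), a2 (a1 a0), a2 (a2 a0)]

theorem cj_all [Finite G] {gen : ℕ → G} {ys rs : List Word} {s : Word} {cs : List (ℕ × Word × Word)} {n p : ℕ}
    (h : Rels gen (cjR ys rs s cs n)) {σ : Fin n → Fin n} (hσ : ∀ i : Fin n, (getL (0, [], []) cs i).1 = σ i)
    (hc : ∀ i : Fin n, Nat.card (sub gen [flat ys (getL [] rs i)]) = p) (i : Fin n) : ∃ k ∈ sub gen ys,
      CjA (k * ev gen s) (sub gen [flat ys (getL [] rs i)]) (sub gen [flat ys (getL [] rs (σ i))]) := by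
  have e := h _ (List.mem_map_of_mem (List.mem_range.2 i.2))
  simp only [evA, hσ] at e
  refine ⟨_, ev_flat_mem _ _ (getL (0, [], []) cs i).2.1, eq_of_le_of_card_ge ?_ (by rw [card_map_conj, hc, hc])⟩
  rw [sub_single, zpowers_conj, zpowers_le, e, mul_inv_cancel_right]
  exact ev_flat_mem _ _ _

theorem Kl.cl {gen : ℕ → G} {p n : ℕ} {xs : List Word} (h : Kl gen p n xs) :
    CL ⊤ ⊤ p fun i : Fin n => sub gen [getL [] xs i] :=
  ⟨fun i => ⟨le_top, h.1 i⟩, fun i j ⟨g, _, c⟩ => h.2.1 i j ⟨g, c⟩,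
    fun X _ c => let ⟨i, g, c⟩ := h.2.2 X c; ⟨i, g, trivial, c⟩⟩

end L
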