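import Cfsg.Agent.L.CL
import Cfsg.Agent.L.KN
import Cfsg.Agent.H26.Core

/-! Coset covers; subgroups containing a Sylow subgroup. -/

set_option autoImplicit false

namespace L
open H14 Cfsg Subgroup

/-- `k_j t_i = t_l q` -/
noncomputable def covR (ks qs ts : List Word) (js : List (List (Nat × Word))) : Prs :=
  List.flatMap (fun p : Word × List (Nat × Word) => List.map (fun q : Word × Nat × Word =>
    (List.append p.1 q.1, List.append (flat qs q.2.2) (getL [] ts q.2.1))) (List.zip ks p.2)) (List.zip ts js)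

noncomputable def tuR (qs us ts : List Word) (cs : List (Nat × Word)) : Prs :=
  List.map (fun q : Word × Nat × Word => (getL [] us q.2.1, flat (q.1 :: qs) q.2.2)) (List.zip ts cs)

variable {G G' : Type*} [Group G] [Group G']

theorem cov_of [Finite G] {gen : ℕ → G} {ks qs ts : List Word} {js : List (List (ℕ × Word))}
    (h : Rels gen (covR ks qs ([] :: ts) js)) (l : band (Nat.beq (lenL js) (lenL ([] :: ts)))
      (allL (fun j => band (Nat.beq (lenL j) (lenL ks)) (allL (fun c : ℕ × Word => ltb c.1 (lenL ([] :: ts))) j)) js) = true) :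
    ∀ g ∈ sub gen ks, ∃ t ∈ [] :: ts, ∃ k ∈ sub gen qs, g = ev gen t * k := fun g hg => by
  obtain ⟨l1, l2⟩ := band_iff.1 l
  have hg' : g ∈ Submonoid.closure {g | ∃ w ∈ ks, ev gen w = g} := by
    rw [← Subgroup.closure_toSubmonoid_of_finite]; exact hg
  clear hg
  induction hg' using Submonoid.closure_induction_left with
  | one => exact ⟨[], List.mem_cons_self, 1, one_mem _, (one_mul _).symm⟩
  | mul_left x hx g _ ih =>
    obtain ⟨a, ha, rfl⟩ := hx
    obtain ⟨t, ht, k, hk, rfl⟩ := ih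
    obtain ⟨j, hj, h7⟩ := exists_zip (beq_len l1) ht
    obtain ⟨h8, h9⟩ := band_iff.1 (allL_iff.1 l2 j hj)
    obtain ⟨c, hc, h10⟩ := exists_zip (beq_len h8) ha
    have := h _ (List.mem_flatMap.2 ⟨_, h7, List.mem_map_of_mem h10⟩)
    simp only [evA] at this
    exact ⟨_, getL_mem [] _ (lenL_eq ([] :: ts) ▸ ltb_iff.1 (allL_iff.1 h9 c hc)), _,
      mul_mem (ev_flat_mem _ _ c.2) hk, by rw [← mul_assoc, this, mul_assoc]⟩

theorem tu_of {gen : ℕ → G} {qs us ts : List Word} {cs : List (ℕ × Word)} (h : Rels gen (tuR qs us ts cs))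
    (l : band (Nat.beq (lenL cs) (lenL ts)) (allL (fun c : ℕ × Word => ltb c.1 (lenL us)) cs) = true) :
    ∀ t ∈ ts, ∃ u ∈ us, ev gen u ∈ sub gen (t :: qs) := fun t ht => by
  obtain ⟨l1, l2⟩ := band_iff.1 l
  obtain ⟨c, hc, h1⟩ := exists_zip (beq_len l1) ht
  exact ⟨_, getL_mem [] _ (lenL_eq us ▸ ltb_iff.1 (allL_iff.1 l2 c hc)),
    (h _ (List.mem_map_of_mem h1)).symm ▸ ev_flat_mem _ _ _⟩

theorem ocv_nrm {gen : ℕ → G} {as rs : List Word} {H : Subgroup G} (h : OCv gen as H rs)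
    (nc : ∀ r ∈ rs, ∀ s ∈ rs, CjS (sub gen [r]) (sub gen [s]) → r = s)
    (h1 : H ≤ normalizer (sub gen as : Set G)) {x : Word} (h2 : sub gen [x] ≤ sub gen as)
    (h3 : normalizer (sub gen [x] : Set G) ⊓ normalizer (sub gen as : Set G) ≤ H) :
    normalizer (sub gen as : Set G) = H :=
  le_antisymm (fun g hg => by
    have hx := h2 (ev_mem_sub gen List.mem_cons_self)
    obtain ⟨n, hn, e⟩ := h.fus nc _ hx g ((hg _).1 hx)
    refine (mul_mem_cancel_left (inv_mem hn)).1 (h3 (mem_inf.2 ⟨centralizer_le_normalizer _ ?_, mul_mem (inv_mem (h1 hn)) hg⟩))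
    rw [cent_single, mem_centralizer_singleton_iff, ← mul_inv_eq_iff_eq_mul, mul_inv_rev, mul_assoc n⁻¹,
      mul_assoc n⁻¹, ← mul_assoc _ g⁻¹, ← e]
    group) h1

theorem nnorm_of {gen : ℕ → G} {as : List Word} {p : ℕ} (h : IsElementaryAbelian p (sub gen as)) (i j : ℕ) {u : Word}
    (h1 : ¬ Commute (ev gen (cjW u (getL [] as i))) (ev gen (getL [] as j))) :
    ev gen u ∉ normalizer (sub gen as : Set G) := fun hu =>
  h1 (congrArg Subtype.val (h.1.1.1 ⟨_, ev_cjW gen u _ ▸ (hu _).1 (loc_mem gen as i)⟩ ⟨_, loc_mem gen as j⟩))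

theorem cjA_self {g : G} {X : Subgroup G} : CjA g X X ↔ g ∈ normalizer (X : Set G) :=
  mem_normalizer_iff_map_conj_eq.symm

theorem CjA.map (ψ : G →* G') {g : G} {X Y : Subgroup G} (h : CjA g X Y) : CjA (ψ g) (X.map ψ) (Y.map ψ) := by
  unfold CjA at *
  rw [← h, map_map, map_map]
  exact congrArg X.map (MonoidHom.ext fun x => by simp)

theorem syl_in [Finite G] {p k N : ℕ} (hp : p.Prime) {H X Y : Subgroup G} (hN : Nat.card H = N)
    (h : N % p ^ (k + 1) ≠ 0) (h1 : X ≤ H) (h2 : Y ≤ H) (hX : Nat.card X = p ^ k) (hY : Nat.card Y = p ^ k) :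
    ∃ g ∈ H, CjA g X Y := by
  obtain ⟨g, e⟩ := conj_of_sylow hp hN h (X.subgroupOf H) (Y.subgroupOf H)
    ((Nat.card_congr (subgroupOfEquivOfLe h1).toEquiv).trans hX) ((Nat.card_congr (subgroupOfEquivOfLe h2).toEquiv).trans hY)
  have := CjA.map H.subtype e
  rw [map_subgroupOf_eq_of_le h1, map_subgroupOf_eq_of_le h2] at this
  exact ⟨g, g.2, this⟩

theorem odd_mem [Finite G] {B N : Subgroup G} (h : B ≤ N) (hc : Nat.card N ≤ 2 * Nat.card B) {y : G} (hy : y ∈ N)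
    {m : ℕ} (hm : y ^ (2 * m + 1) = 1) : y ∈ B := by
  have e := (B.subgroupOf N).index_mul_card
  rw [Nat.card_congr (subgroupOfEquivOfLe h).toEquiv] at e
  have h1 : (B.subgroupOf N).index ≤ 2 := Nat.le_of_mul_le_mul_right (e ▸ hc) Nat.card_pos
  have h2 : (B.subgroupOf N).index ≠ 0 := index_ne_zero_of_finite
  have h3 : y ^ 2 ∈ B := by
    rcases (by omega : (B.subgroupOf N).index = 1 ∨ (B.subgroupOf N).index = 2) with e | e
    · exact subgroupOf_eq_top.1 (index_eq_one.1 e) (pow_mem hy 2)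
    · exact sq_mem_of_index_two e ⟨y, hy⟩
  have := pow_mem h3 (m + 1)
  rwa [← pow_mul, mul_add, add_assoc (2 * m) 1 1 |>.symm.trans rfl, pow_succ, hm, one_mul] at this

/-- the Sylow `3`-structure of `U₄(3)` -/
def FU (K P E B Z : Subgroup G) (g : G) : Prop := (P ≤ K ∧ B ≤ K ∧ E ≤ P ∧ Z ≤ P ∧ g ∈ K) ∧
  (Nat.card P = 3 ^ 6 ∧ Nat.card E = 3 ^ 4 ∧ Nat.card Z = 3 ∧ 29160 ≤ Nat.card B) ∧ IsElementaryAbelian 3 E ∧
    (∀ b ∈ B, CjA b E E) ∧ Z ≤ centralizer (P : Set G) ∧ CjA g Z Z ∧ ¬ CjA g E E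

theorem FU.map_iff {ψ : G →* G'} (h : Function.Injective ψ) {K P E B Z : Subgroup G} {g : G} :
    FU (K.map ψ) (P.map ψ) (E.map ψ) (B.map ψ) (Z.map ψ) (ψ g) ↔ FU K P E B Z g := by
  have : (∀ b ∈ B.map ψ, CjA b (E.map ψ) (E.map ψ)) ↔ ∀ b ∈ B, CjA b E E :=
    ⟨fun a b hb => (cjA_map h).1 (a _ ⟨b, hb, rfl⟩), fun a _ ⟨b, hb, e⟩ => e ▸ (a b hb).map ψ⟩
  simp only [FU, map_le_map_iff_of_injective h, card_map_of_injective h, mem_map_iff_mem h, H26.elemAb_map_iff h,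
    this, H26.map_le_centralizer_map_iff h, cjA_map h]

theorem FU.iso {K P E B Z : Subgroup G} {g : G} (h : FU K P E B Z g) {H : Subgroup G'} (e : K ≃* H) :
    ∃ P E B Z g, FU H P E B Z g := by
  obtain ⟨h1, h2, h3, h4, h5⟩ := h.1
  have k : FU (⊤ : Subgroup K) (P.subgroupOf K) (E.subgroupOf K) (B.subgroupOf K) (Z.subgroupOf K) ⟨g, h5⟩ := by
    rw [← FU.map_iff K.subtype_injective, map_subgroupOf_eq_of_le h1, map_subgroupOf_eq_of_le h2,
      map_subgroupOf_eq_of_le (h3.trans h1), map_subgroupOf_eq_of_le (h4.trans h1), ← MonoidHom.range_eq_map,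
      range_subtype]
    exact h
  have := (FU.map_iff (ψ := H.subtype.comp e.toMonoidHom) (H.subtype_injective.comp e.injective)).2 k
  rw [← map_map, map_top_of_surjective _ e.surjective, ← MonoidHom.range_eq_map, range_subtype] at this
  exact ⟨_, _, _, _, _, this⟩

theorem ea_eq [Finite G] {p : ℕ} {P A E : Subgroup G} (h : ∀ B ∈ H4.MaxEA p P, B = A) (h1 : E ≤ P)
    (h2 : IsElementaryAbelian p E) (h3 : Nat.card A ≤ Nat.card E) : E = A := by
  obtain ⟨B, hB⟩ := H4.exists_maxEA p P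
  exact h E ⟨h1, h2, fun C hC c => (hB.2.2 C hC c).trans (h B hB ▸ h3)⟩

theorem FU.cls [Finite G] {N : ℕ} (hN : Nat.card G = N) (hm : N % 3 ^ (6 + 1) ≠ 0) {P A X : Subgroup G} {y : G}
    (cP : Nat.card P = 3 ^ 6) (ea : ∀ B ∈ H4.MaxEA 3 P, B = A) (cA : Nat.card A = 3 ^ 4)
    (cC : Nat.card (centralizer (P : Set G)) ≤ 3) (hX : X ≤ centralizer (P : Set G)) (cX : Nat.card X = 3)
    (cN : Nat.card (normalizer (A : Set G)) ≤ 720 * 3 ^ 4) (hy : y ∈ normalizer (A : Set G)) (y5 : y ^ 5 = 1)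
    {H P' E B Z : Subgroup G} {g : G} (h : FU H P' E B Z g) : ∃ c K, CjA c H K ∧ P ≤ K ∧ y ∈ K ∧
      ∃ g ∈ K, g ∈ normalizer (X : Set G) ∧ g ∉ normalizer (A : Set G) := by
  obtain ⟨c, e⟩ := conj_of_sylow (by norm_num) hN hm P' P h.2.1.1 cP
  have h' := (FU.map_iff (ψ := (MulAut.conj c).toMonoidHom) (MulAut.conj c).injective).2 h
  rw [e] at h'
  obtain ⟨⟨a1, a2, a3, -, a5⟩, ⟨-, b2, b3, b4⟩, c1, c2, c3, c4, c5⟩ := h'
  rw [ea_eq ea a3 c1 (cA.trans b2.symm).le] at c2 c5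
  rw [← (eq_of_cards c3 cC b3.ge).1, (eq_of_cards hX cC cX.ge).1] at c4
  exact ⟨c, _, rfl, a1, a2 (odd_mem (fun b hb => cjA_self.1 (c2 b hb)) (by omega) hy (m := 2) y5), _, a5,
    cjA_self.1 c4, fun h => c5 (cjA_self.2 h)⟩

theorem nc_syl [Finite G] {p k N : ℕ} (hp : p.Prime) {P A H K : Subgroup G} (hN : Nat.card K = N)
    (hm : N % p ^ (k + 1) ≠ 0) (cP : Nat.card P = p ^ k) (ea : ∀ B ∈ H4.MaxEA p P, B = A) (h1 : P ≤ H) (h2 : P ≤ K)
    (h3 : normalizer (A : Set G) ≤ normalizer (H : Set G)) {g : G} (h : CjA g H K) : H = K := by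
  obtain ⟨k, hk, c⟩ := syl_in hp hN hm (h ▸ map_mono h1) h2 ((card_map_conj _ _).trans cP) cP
  obtain ⟨B, hB⟩ := H4.exists_maxEA p P
  obtain rfl := ea B hB
  have c1 : CjA (k * g) P P := CjA.trans rfl c
  have c2 : CjA (k * g) B B := ea_eq ea (c1 ▸ map_mono hB.1) (H26.elemAb_map hB.2.1 _) (card_map_conj _ _).ge
  exact (Eq.symm (cjA_self.2 (h3 (cjA_self.1 c2)))).trans (h.trans (cjA_self.2 (le_normalizer hk)))

/-- subgroups of a central extension that contain the centre -/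
theorem cen_ext [Finite G] {X : Type*} [Group X] (hX : center X = ⊥) {K : Subgroup G} (h : center G ≤ K) :
    (Nonempty (K.map (QuotientGroup.mk' (center G)) ≃* X) →
      Nat.card (center K) = Nat.card (center G) ∧ Nonempty (K ⧸ center K ≃* X)) ∧
    (Nat.card (center K) = Nat.card (center G) → Nonempty (K ⧸ center K ≃* X) →
      Nonempty (K.map (QuotientGroup.mk' (center G)) ≃* X)) := by
  let f := (QuotientGroup.mk' (center G)).comp K.subtype
  have k : f.ker = (center G).subgroupOf K := by rw [← MonoidHom.comap_ker, QuotientGroup.ker_mk']; rfl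
  have r : f.range = K.map (QuotientGroup.mk' (center G)) := by rw [MonoidHom.range_comp, range_subtype]
  have i := ((QuotientGroup.quotientMulEquivOfEq k.symm).trans (QuotientGroup.quotientKerEquivRange f)).trans
    (MulEquiv.subgroupCongr r)
  refine ⟨fun ⟨e⟩ => ?_, fun c ⟨e⟩ => ⟨i.symm.trans ((QuotientGroup.quotientMulEquivOfEq ?_).trans e)⟩⟩
  · have := qs_of h (center_le_centralizer _) ⟨i.trans e⟩ hX
    exact ⟨card_of_map this.1 rfl, this.2.2.1⟩
  · exact eq_of_le_of_card_ge (fun x hx => mem_center_iff.2 fun y => Subtype.ext (mem_center_iff.1 hx y))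
      (c.trans (Nat.card_congr (subgroupOfEquivOfLe h).toEquiv).symm).le

end L
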