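import Cfsg.Agent.L.DK

/-! The checker of `L.DK` with bit vectors for the prime two, and lower bounds for the order of a group with a
polycyclic series through conjugates. -/

set_option autoImplicit false

namespace L.DK
open Subgroup
open scoped IsMulCommutative

variable {Γ : Type*} [Group Γ]

/-- the first `n` relations can be lifted exactly -/
def Lft (q n : ℕ) (R : Rl) : Prop := ∀ (Γ : Type) [Group Γ] (y : ℕ → Γ) (c : ℕ → center Γ) (K : Subgroup (center Γ)),
  (∀ j, c j ∈ K) → (∀ j, c j ^ (q + 1) = 1) → (∀ j, pr y (R.getD j ([], [])).1 = pr y (R.getD j ([], [])).2 * c j) →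
  ∃ a : ℕ → center Γ, (∀ l, a l ∈ K) ∧ ∀ j < n, pr (fun l => y l * a l) (R.getD j ([], [])).1 =
    pr (fun l => y l * a l) (R.getD j ([], [])).2

theorem lft1 {q n : ℕ} {R : Rl} {V W B : List (List ℕ)} {D : List (ℕ × ℕ)} (hW : D.map (relv q R) = W)
    (hf : (List.range n).all (fin q R V W B) = true) : Lft q n R := fun Γ _ y c K hK hq hc =>
  ⟨fun l => val c (V.getD l []), fun l => by
    beta_reduce
    generalize V.getD l [] = v
    clear hq hc
    induction v generalizing c with
    | nil => exact K.one_mem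
    | cons a v ih => exact mul_mem (pow_mem (hK 0) _) (ih _ fun _ => hK _),
   fun j hj => fin_spec hq hc hW (List.all_eq_true.1 hf j (List.mem_range.2 hj))⟩

section
variable {A : Type*} [CommGroup A]

def val2 (c : ℕ → A) (v : ℕ) : A := ∏ j ∈ Finset.range 1024, if v.testBit j then c j else 1

theorem val2_zero (c : ℕ → A) : val2 c 0 = 1 := by simp [val2]

theorem val2_xor {c : ℕ → A} (h : ∀ j, c j ^ (1 + 1) = 1) (u v : ℕ) : val2 c (Nat.xor u v) = val2 c u * val2 c v := by
  rw [val2, val2, val2, ← Finset.prod_mul_distrib]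
  refine Finset.prod_congr rfl fun j _ => ?_
  rw [show Nat.xor u v = u ^^^ v from rfl, Nat.testBit_xor]
  cases u.testBit j <;> cases v.testBit j <;> simp [← sq, h j]

theorem val2_unit (c : ℕ → A) {j : ℕ} (hj : j < 1024) : val2 c (Nat.shiftLeft 1 j) = c j := by
  rw [val2, show Nat.shiftLeft 1 j = 2 ^ j from Nat.one_shiftLeft j]
  simp [Nat.testBit_two_pow, hj]
end

noncomputable def dw24 (x : Nat) : List ℕ :=
  @Nat.rec (fun _ => Nat → List ℕ) (fun _ => [])
    (fun _ ih y => lit y fun y => @Nat.rec (fun _ => List ℕ) [] (fun p _ => p :: ih (Nat.shiftRight y 24))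
      (Nat.land y 16777215)) (Nat.succ (Nat.shiftRight (Nat.log2 x) 4)) x

def run2 (R : Rl) : List ℕ → List ℕ → ℕ → Option (List ℕ × ℕ)
  | [], w, v => some (w, v)
  | s :: p, w, v => (fun j => (fun r => (cond (Nat.beq (Nat.mod s 2) 0) (rep r.1 r.2 (Nat.div s 2048) w)
      (rep r.2 r.1 (Nat.div s 2048) w)).bind fun w' => run2 R p w' (Nat.xor (Nat.shiftLeft 1 j) v)) (R.getD j ([], [])))
    (Nat.mod (Nat.div s 2) 1024)

noncomputable def relv2 (R : Rl) (d : ℕ × ℕ) : ℕ :=
  ((run2 R (dw24 d.2) (H14.dw d.1) 0).map fun x => cond (x.1 == H14.dw d.1) x.2 0).getD 0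

def vs2 (V w : List ℕ) : ℕ := w.foldr (fun l s => Nat.xor (V.getD l 0) s) 0

noncomputable def lc2 (W : List ℕ) : ℕ → ℕ :=
  @List.rec _ (fun _ => ℕ → ℕ) (fun _ => 0) (fun v _ ih b => lit b fun b =>
    cond (Nat.beq (Nat.mod b 2) 0) (ih (Nat.div b 2)) (Nat.xor v (ih (Nat.div b 2)))) W

noncomputable def fin2 (R : Rl) (V W B : List ℕ) (j : ℕ) : Bool := Nat.blt j 1024 && Nat.beq (Nat.xor (Nat.shiftLeft 1 j)
  (Nat.xor (vs2 V (R.getD j ([], [])).2) (lc2 W (B.getD j 0)))) (vs2 V (R.getD j ([], [])).1)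

section
variable {R : Rl} {y : ℕ → Γ} {c : ℕ → center Γ} (hq : ∀ j, c j ^ (1 + 1) = 1)
  (hc : ∀ j, pr y (R.getD j ([], [])).1 = pr y (R.getD j ([], [])).2 * c j)
include hq hc

theorem run2_spec : ∀ {p w : List ℕ} {v : ℕ} {x : List ℕ × ℕ}, run2 R p w v = some x →
    pr y w * (val2 c v : center Γ) = pr y x.1 * (val2 c x.2 : center Γ)
  | [], _, _, _, h => by cases h; rfl
  | s :: p, w, v, x, h => by
    rw [run2] at h
    beta_reduce at h
    obtain ⟨w', h1, h2⟩ := Option.bind_eq_some_iff.1 h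
    rw [← run2_spec h2, val2_xor hq, val2_unit c (j := Nat.mod (Nat.div s 2) 1024) (Nat.mod_lt _ (by decide))]
    cases e : Nat.beq (Nat.mod s 2) 0
    · rw [e, cond_false] at h1
      obtain ⟨u, t, rfl, rfl⟩ := rep_spec h1
      rw [pr_rep (hc _), mul_assoc, ← coe_mul, ← mul_assoc, ← sq]
      exact congrArg (fun z : center Γ => _ * (z : Γ)) ((one_mul _).symm.trans (congrArg (· * _) (hq _).symm))
    · rw [e, cond_true] at h1
      obtain ⟨u, t, rfl, rfl⟩ := rep_spec h1
      rw [pr_rep (hc _), coe_mul, mul_assoc]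

theorem val_relv2 (d : ℕ × ℕ) : val2 c (relv2 R d) = 1 := by
  unfold relv2
  cases h : run2 R (dw24 d.2) (H14.dw d.1) 0 with
  | none => exact val2_zero c
  | some x =>
    rw [Option.map_some, Option.getD_some]
    cases e : x.1 == H14.dw d.1
    · exact val2_zero c
    have := run2_spec hq hc h
    rw [← eq_of_beq e, val2_zero] at this
    exact Subtype.ext (mul_left_cancel this).symm

omit hc in
theorem val_lc2 : ∀ (W : List ℕ) (b : ℕ), (∀ v ∈ W, val2 c v = 1) → val2 c (lc2 W b) = 1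
  | [], _, _ => val2_zero c
  | v :: W, b, h => by
    have := val_lc2 W (Nat.div b 2) fun _ hv => h _ (List.mem_cons_of_mem _ hv)
    rw [show lc2 (v :: W) b = _ from lit_eq b fun b => cond (Nat.beq (Nat.mod b 2) 0) (lc2 W (Nat.div b 2))
      (Nat.xor v (lc2 W (Nat.div b 2)))]
    cases Nat.beq (Nat.mod b 2) 0
    · rw [cond_false, val2_xor hq, this, h v List.mem_cons_self, mul_one]
    · exact this

omit hc in
theorem pr_gauge2 (V w : List ℕ) :
    pr (fun l => y l * (val2 c (V.getD l 0) : center Γ)) w = pr y w * (val2 c (vs2 V w) : center Γ) := by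
  induction w with
  | nil => exact (mul_one _).symm.trans (congrArg (fun z : center Γ => _ * (z : Γ)) (val2_zero c).symm)
  | cons a w ih =>
    simp only [pr, List.map_cons, List.prod_cons] at ih ⊢
    rw [ih, show vs2 V (a :: w) = Nat.xor (V.getD a 0) (vs2 V w) from rfl, val2_xor hq, coe_mul, mul_assoc,
      ← mul_assoc (_ : center Γ).1, ← mem_center_iff.1 (val2 c (V.getD a 0)).2]
    simp only [mul_assoc]
end

theorem lft2 {n : ℕ} {R : Rl} {V W B : List ℕ} {D : List (ℕ × ℕ)} (hW : D.map (relv2 R) = W)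
    (hf : (List.range n).all (fin2 R V W B) = true) : Lft 1 n R := fun Γ _ y c K hK hq hc =>
  ⟨fun l => val2 c (V.getD l 0), fun l => prod_mem fun j _ => by split_ifs; exacts [hK j, one_mem _], fun j hj => by
    have h := List.all_eq_true.1 hf j (List.mem_range.2 hj)
    rw [fin2, Bool.and_eq_true, Nat.blt_eq] at h
    rw [pr_gauge2 hq, pr_gauge2 hq, ← Nat.eq_of_beq_eq_true h.2, val2_xor hq, val2_xor hq, val2_unit c h.1,
      val_lc2 hq W _ (by rw [← hW]; exact List.forall_mem_map.2 fun d _ => val_relv2 hq hc d), mul_one, hc, mul_assoc,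
      ← coe_mul, ← mul_assoc, ← sq, show c j ^ 2 = 1 from hq j, one_mul]⟩

theorem kerTriv' {G : Type} [Group G] [Finite G] {q k n : ℕ} {R : Rl}
    (hp : (q + 1).Prime) (h : Shape (q + 1) k n R) (hL : Lft q n R) {x : ℕ → G} (hx : ∀ r ∈ R, pr x r.1 = pr x r.2)
    (hc : (q + 1) ^ k ≤ Nat.card (Nn x k 0)) (hG : ¬(q + 1) ^ (k + 1) ∣ Nat.card G) : KerTriv G (q + 1) [] := by
  refine kerTriv_of_sec fun Γ _ _ σ hσ _ => ?_
  choose s hs using hσ.surj
  have h0 : ∀ j, pr x (R.getD j ([], [])).1 = pr x (R.getD j ([], [])).2 := fun j => by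
    rw [List.getD_eq_getElem?_getD]
    cases e : R[j]? with
    | none => rfl
    | some r => exact hx r (List.mem_of_getElem? e)
  have h1 : ∀ j, (pr (fun l => s (x l)) (R.getD j ([], [])).2)⁻¹ * pr (fun l => s (x l)) (R.getD j ([], [])).1 ∈ σ.ker :=
    fun j => by
      rw [MonoidHom.mem_ker, map_mul, map_inv, map_pr, map_pr]
      simp only [hs, h0, inv_mul_cancel]
  obtain ⟨a, ha, hb⟩ := hL Γ (fun l => s (x l)) (fun j => ⟨_, hσ.cent (h1 j)⟩) (σ.ker.subgroupOf _) h1
    (fun j => Subtype.ext (hσ.exp _ (h1 j))) fun j => (mul_inv_cancel_left _ _).symm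
  let y : ℕ → Γ := fun l => s (x l) * a l
  have e : (Nn y k 0).map σ = Nn x k 0 := by
    rw [map_Nn]; congr 1; funext l
    rw [map_mul, hs, show σ (a l) = 1 from ha l, mul_one]
  have hle : Nat.card (Nn x k 0) ≤ Nat.card (Nn y k 0) :=
    e ▸ Nat.card_le_card_of_surjective _ (σ.subgroupMap_surjective _)
  have hy := card_pc hp.one_lt h (y := y) hb (hc.trans hle)
  refine sec_gas hσ le_top ?_ (e ▸ sec_of_card_le (by rw [e, hy]; exact hc))
  rw [relIndex_top_right, hp.coprime_iff_not_dvd]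
  refine fun hd => hG ?_
  rw [← (Nn x k 0).card_mul_index, le_antisymm (hy ▸ hle) hc, pow_succ]
  exact Nat.mul_dvd_mul_left _ hd

theorem card_step {K N : Subgroup Γ} [Finite N] (hKN : K ≤ N) {a : Γ} (ha : K ≤ centralizer {a}) {ws : List Γ}
    (hw : ∀ w ∈ ws, w ∈ N) (hn : (ws.map fun w => w⁻¹ * a * w).Nodup) : ws.length * Nat.card K ≤ Nat.card N := by
  have := Nat.card_le_card_of_injective (fun p : Fin ws.length × K =>
    (⟨p.2 * ws[p.1], mul_mem (hKN p.2.2) (hw _ (List.getElem_mem _))⟩ : N)) fun p p' e => by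
      have e : (p.2 : Γ) * ws[p.1] = p'.2 * ws[p'.1] := congrArg Subtype.val e
      have k : ∀ (t : K) (w : Γ), (t * w)⁻¹ * a * (t * w) = w⁻¹ * a * w := fun t w => by
        rw [mul_inv_rev, mul_assoc, ← mul_assoc a, ← mem_centralizer_singleton_iff.1 (ha t.2)]
        simp only [mul_assoc, inv_mul_cancel_left]
      have e1 : p.1 = p'.1 := Fin.ext ((hn.getElem_inj_iff (i := p.1) (j := p'.1) (hi := by simp) (hj := by simp)).1 (by
        simp only [List.getElem_map]
        exact (k p.2 _).symm.trans ((congrArg (fun g => g⁻¹ * a * g) e).trans (k p'.2 _))))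
      refine Prod.ext e1 (Subtype.ext (mul_right_cancel (e.trans ?_)))
      exact congrArg (fun i : Fin ws.length => (p'.2 : Γ) * ws[i]) e1.symm
  rwa [Nat.card_prod, Nat.card_fin] at this

/-- a block: the next index, the word to be conjugated and the conjugating words -/
abbrev Bk := ℕ × H14.Word × List (List ℕ)

noncomputable def cjw (o : ℕ) (b : Bk) : List H14.Word := b.2.2.map fun w => wd o w ++ (b.2.1 ++ H14.invW (wd o w))

def cmR (o k : ℕ) (b : Bk) : List (H14.Word × H14.Word) :=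
  (List.range' b.1 (k - b.1)).map fun l => (b.2.1 ++ [2 * (o + l)], [2 * (o + l)] ++ b.2.1)

def bkOk (k : ℕ) : List Bk → ℕ → Bool
  | [], _ => true
  | b :: L, i => Nat.ble i b.1 && (b.2.2.all (fun w => w.all fun l => Nat.ble i l && Nat.blt l k) && bkOk k L b.1)

theorem low {g : ℕ → Γ} {o k : ℕ} [Finite (Nn (fun l => g (o + l)) k 0)] : ∀ {L : List Bk} {i : ℕ}, bkOk k L i = true →
    (∀ b ∈ L, H14.Rels g (cmR o k b) ∧ ((cjw o b).map (H14.ev g)).Nodup) →
    (L.map fun b => b.2.2.length).prod ≤ Nat.card (Nn (fun l => g (o + l)) k i)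
  | [], i, _, _ => by
    have := Finite.Set.subset _ (Nn_mono (z := fun l => g (o + l)) (m := k) (Nat.zero_le i))
    exact Nat.card_pos
  | b :: L, i, h, hb => by
    simp only [bkOk, Bool.and_eq_true, List.all_eq_true, Nat.ble_eq, Nat.blt_eq] at h
    have : Finite (Nn (fun l => g (o + l)) k i) :=
      Finite.Set.subset _ (Nn_mono (z := fun l => g (o + l)) (m := k) (Nat.zero_le i))
    obtain ⟨b1, b2⟩ := hb b List.mem_cons_self
    have := card_step (Nn_mono h.1) (a := H14.ev g b.2.1) (ws := b.2.2.map fun w => H14.ev g (wd o w))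
      ((closure_le _).2 (by
        rintro _ ⟨l, l1, l2, rfl⟩
        have := b1 _ (List.mem_map_of_mem (List.mem_range'_1.2 ⟨l1, by omega⟩))
        rw [H14.ev_append, H14.ev_append, H14.ev_single] at this
        exact mem_centralizer_singleton_iff.2 this))
      (List.forall_mem_map.2 fun w hw => (ev_wd g o w).symm ▸ pr_mem fun l hl =>
        gen_mem_Nn (h.2.1 w hw l hl).1 (h.2.1 w hw l hl).2)
      (by simpa only [cjw, List.map_map, Function.comp_def, H14.ev_append, H14.ev_invW] using b2)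
    rw [List.map_cons, List.prod_cons, ← List.length_map fun w => H14.ev g (wd o w)]
    exact (Nat.mul_le_mul_left _ (low h.2.2 fun b hb' => hb b (List.mem_cons_of_mem _ hb'))).trans this

theorem kerTriv_sub' {K : Type} [Group K] (G : Subgroup K) [Finite G] {q k n : ℕ} {R : Rl}
    (hp : (q + 1).Prime) (h : Shape (q + 1) k n R) (hL : Lft q n R) {g : ℕ → K} {o N : ℕ} (hm : ∀ l < o + N, g l ∈ G)
    (hx : H14.Rels g (R.map fun r => (wd o r.1, wd o r.2))) {L : List Bk}
    (hn : ∀ b ∈ L, H14.Rels g (cmR o k b) ∧ ((cjw o b).map (H14.ev g)).Nodup)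
    (hb : (R.all (fun r => (r.1 ++ r.2).all (Nat.blt · N)) && (bkOk k L 0 &&
      (Nat.ble k N && Nat.beq (L.map fun b => b.2.2.length).prod ((q + 1) ^ k)))) = true)
    (hG : ¬(q + 1) ^ (k + 1) ∣ Nat.card G) : KerTriv G (q + 1) [] := by
  simp only [Bool.and_eq_true, List.all_eq_true, Nat.blt_eq, Nat.ble_eq, Nat.beq_eq, List.forall_mem_append] at hb
  obtain ⟨b1, b2, b3, b4⟩ := hb
  let x : ℕ → G := fun l => if h : l < N then ⟨g (o + l), hm _ (by omega)⟩ else 1
  have e : ∀ w : List ℕ, (∀ l ∈ w, l < N) → (pr x w : G) = H14.ev g (wd o w) := fun w hw => by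
    rw [ev_wd]
    refine (map_pr G.subtype x w).trans (congrArg List.prod (List.map_congr_left fun l hl => ?_))
    simp only [x, dif_pos (hw l hl), coe_subtype]
  refine kerTriv' hp h hL (x := x) (fun r hr => Subtype.ext ?_) ?_ hG
  · rw [e _ (b1 r hr).1, e _ (b1 r hr).2]
    exact hx _ (List.mem_map_of_mem hr)
  · have e1 : (Nn x k 0).map G.subtype = Nn (fun l => g (o + l)) k 0 := by
      rw [map_Nn, Nn, Nn]
      congr 1
      ext t
      refine exists_congr fun l => and_congr_right fun _ => and_congr_right fun hl => ?_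
      simp only [x, dif_pos (hl.trans_le b3), coe_subtype]
    have e2 := card_map_of_injective (K := Nn x k 0) G.subtype_injective
    rw [e1] at e2
    have : Finite (Nn (fun l => g (o + l)) k 0) := Nat.finite_of_card_ne_zero (e2 ▸ Nat.card_pos.ne')
    rw [← b4, ← e2]
    exact low b2 hn

theorem low_bp {c : H15.BP} (h : c.ok = true) {Ms : List (ℕ × ℕ)} {g : ℕ → GL (Fin c.d) (ZMod c.p)}
    (hg : c.Gen Ms g) {L : List Bk} {o k n : ℕ} (hc : L.all (fun b => c.rels Ms (cmR o k b) &&
      (Nat.ble n (c.d * c.d) && ((cjw o b).all (fun w => !w.isEmpty) &&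
      srt (fun w => lit (c.ev Ms w) (hsh c.W n)) (cjw o b) 0))) = true) :
    ∀ b ∈ L, H14.Rels g (cmR o k b) ∧ ((cjw o b).map (H14.ev g)).Nodup := fun b hb =>
  have := Bool.and_eq_true_iff.1 (List.all_eq_true.1 hc b hb)
  ⟨H15.BP.rels_of_chk h hg this.1, nodup_bp h hg this.2⟩

end L.DK
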