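import Cfsg.Agent.L.Cov
import Cfsg.Agent.L.Pt
import Cfsg.Agent.H15.Lite2

/-! Bit planes over the field with three elements; labelled permutations. -/

set_option autoImplicit false

namespace L.F3
open H14 Subgroup

def v (X : ℕ × ℕ) (i : ℕ) : ZMod 3 := (X.1.testBit i).toNat + 2 * (X.2.testBit i).toNat

noncomputable def add3 (X Y : ℕ × ℕ) : ℕ × ℕ :=
  lit X.1 fun a => lit X.2 fun b => lit Y.1 fun c => lit Y.2 fun d => lit (Nat.land a b) fun e =>
    lit (Nat.land c d) fun f => lit (Nat.xor a e) fun a => lit (Nat.xor b e) fun b => lit (Nat.xor c f) fun c =>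
      lit (Nat.xor d f) fun d => lit (Nat.xor (Nat.lor a d) (Nat.lor b c)) fun t =>
        lit (Nat.xor (Nat.lor b d) t) fun r => lit (Nat.xor (Nat.lor a c) t) fun s => (r, s)

theorem v_add3 (X Y : ℕ × ℕ) (i : ℕ) : v (add3 X Y) i = v X i + v Y i := by
  have e1 : ∀ a b, Nat.xor a b = a ^^^ b := fun _ _ => rfl
  have e2 : ∀ a b, Nat.lor a b = a ||| b := fun _ _ => rfl
  have e3 : ∀ a b, Nat.land a b = a &&& b := fun _ _ => rfl
  simp only [v, add3, lit_eq, e1, e2, e3, Nat.testBit_xor, Nat.testBit_or, Nat.testBit_and]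
  cases X.1.testBit i <;> cases X.2.testBit i <;> cases Y.1.testBit i <;> cases Y.2.testBit i <;> rfl

theorem v_swap (X : ℕ × ℕ) (i : ℕ) : v X.swap i = -v X i := by
  simp only [v, Prod.fst_swap, Prod.snd_swap]
  cases X.1.testBit i <;> cases X.2.testBit i <;> rfl

theorem v_zero (i : ℕ) : v (0, 0) i = 0 := by simp [v]

variable {G Ω : Type} [Group G] [MulAction G Ω] (s : G →* ℤˣ)

abbrev A (Ω : Type) := Multiplicative (Ω → ZMod 3)

def act : G →* MulAut (A Ω) where
  toFun g :=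
    { toFun := fun f => .ofAdd fun x => s g • f.toAdd (g⁻¹ • x)
      invFun := fun f => .ofAdd fun x => (s g)⁻¹ • f.toAdd (g • x)
      left_inv := fun f => by ext x; simp [smul_smul]
      right_inv := fun f => by ext x; simp [smul_smul]
      map_mul' := fun f f' => by ext x; simp }
  map_one' := by ext f x; simp
  map_mul' g h := by ext f x; simp [mul_smul]

abbrev SD (Ω : Type) [MulAction G Ω] := A Ω ⋊[act s] G

def cst (Ω : Type) [MulAction G Ω] : Multiplicative (ZMod 3) →* SD s Ω := SemidirectProduct.inl.comp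
  { toFun := fun c => .ofAdd fun _ => c.toAdd, map_one' := rfl, map_mul' := fun _ _ => rfl }

theorem mul_cst (g : SD s Ω) (c : Multiplicative (ZMod 3)) :
    g * cst s Ω c = cst s Ω (.ofAdd (s g.right • c.toAdd)) * g := by
  ext1
  · simp only [cst, SemidirectProduct.mul_left, MonoidHom.comp_apply, SemidirectProduct.left_inl,
      SemidirectProduct.right_inl, map_one, MulAut.one_apply, mul_comm g.left]
    rfl
  · simp [cst]

instance : (cst s Ω).range.Normal := ⟨by
  rintro _ ⟨c, rfl⟩ g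
  exact ⟨_, by rw [mul_cst, mul_inv_cancel_right]⟩⟩

theorem schur [Finite G] [Nonempty Ω] (hs : commutator G = s.ker) (hp : commutator (commutator G) = ⊤)
    (π : G →* SD s Ω ⧸ (cst s Ω).range) (g : ℕ → SD s Ω) (hπ : ∀ l < 12, π (g l).right = g l)
    (hg : ∀ X : Subgroup G, (∀ l < 12, (g l).right ∈ X) → X = ⊤) (h1 : ∀ l < 12, s (g l).right = -1)
    (h2 : ∀ l < 12, g l * g l = 1) (h3 : ∀ l < 12, 1 < l → (g 0 * g l) ^ 2 = 1) (h4 : (g 1 * g 3) ^ 2 = 1)
    (w : List (ℕ × ℕ)) (hw : ∀ p ∈ w, p.1 < 12 ∧ p.2 < 12)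
    (hz : (w.map fun p => g p.1 * g p.2).prod ^ 17 = cst s Ω (.ofAdd 2))
    (hle : ∀ (Γ : Type) [Group Γ] [Finite Γ] (σ : Γ →* commutator G), Cfsg.IsStemExtension σ → Nat.card σ.ker ≤ 3) :
    Cfsg.HasCyclicSchurMultiplier (commutator G) 3 := by
  let ρ : SD s Ω ⧸ (cst s Ω).range →* G := QuotientGroup.lift _ SemidirectProduct.rightHom (by
    rintro _ ⟨c, rfl⟩; rfl)
  have hρ : ∀ x, ρ (π x) = x := fun x => (hg ((ρ.comp π).eqLocus (MonoidHom.id G)) fun l hl =>
    congrArg ρ (hπ l hl)).ge (mem_top x)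
  let X : Subgroup (SD s Ω) := π.range.comap (QuotientGroup.mk' _) ⊓ (commutator G).comap SemidirectProduct.rightHom
  let ξ : X →* commutator G := (SemidirectProduct.rightHom.comp X.subtype).codRestrict _ fun x => x.2.2
  have sj : Function.Surjective ξ := fun x => by
    obtain ⟨y, hy⟩ := QuotientGroup.mk_surjective (π x)
    have e : y.right = x := (congrArg ρ hy).trans (hρ x)
    exact ⟨⟨y, ⟨x, hy.symm⟩, show y.right ∈ commutator G from e ▸ x.2⟩, Subtype.ext e⟩
  have hk : ∀ x ∈ ξ.ker, X.subtype x ∈ (cst s Ω).range := fun x hx => by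
    obtain ⟨y, hy⟩ := x.2.1
    have e : y = 1 := (hρ y).symm.trans ((congrArg ρ hy).trans (congrArg Subtype.val hx))
    exact (QuotientGroup.eq_one_iff _).1 (hy.symm.trans (e ▸ map_one π))
  have hc : ξ.ker ≤ center X := fun x hx => mem_center_iff.2 fun y => Subtype.ext (by
    obtain ⟨c, e⟩ := hk x hx
    have := mul_cst s y.1 c
    rw [show s y.1.right = 1 from hs.le y.2.2, one_smul] at this
    exact (congrArg (y.1 * ·) e.symm).trans (this.trans (congrArg (· * y.1) e)))
  have h5 : ∀ x : X, x ^ 2 = 1 → x ∈ commutator X := fun x h => by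
    obtain ⟨y, hy, e⟩ : ξ x ∈ (commutator X).map ξ := by
      rw [_root_.commutator_def X, map_commutator, map_top_of_surjective _ sj]; exact hp.ge (mem_top _)
    have k : y⁻¹ * x ∈ ξ.ker := by rw [MonoidHom.mem_ker, map_mul, map_inv, e, inv_mul_cancel]
    have k3 : (y⁻¹ * x) ^ 3 = 1 := Subtype.ext (by
      obtain ⟨c, e⟩ := hk _ k
      exact (congrArg (· ^ 3) e.symm).trans ((map_pow _ c 3).symm.trans
        ((congrArg _ ((by decide : ∀ c : Multiplicative (ZMod 3), c ^ 3 = 1) c)).trans (map_one _))))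
    have : x ^ 3 ∈ commutator X := by
      rw [← mul_inv_cancel_left y x, Commute.mul_pow (mem_center_iff.1 (hc k) y), k3, mul_one]
      exact pow_mem hy 3
    rwa [pow_succ, h, one_mul] at this
  have h6 : ∀ a < 12, ∀ b < 12, (g a * g b) ^ 2 = 1 → g a * g b ∈ (commutator X).map X.subtype := fun a ha b hb h =>
    ⟨⟨_, mul_mem ⟨_, hπ a ha⟩ ⟨_, hπ b hb⟩, hs.ge (show s ((g a).right * (g b).right) = 1 by
      rw [map_mul, h1 a ha, h1 b hb]; rfl)⟩, h5 _ (Subtype.ext h), rfl⟩
  have h7 : ∀ a < 12, ∀ b < 12, g a * g b = (g 0 * g a)⁻¹ * (g 0 * g b) := fun a ha b _ => by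
    rw [mul_inv_rev, mul_assoc, inv_mul_cancel_left, inv_eq_of_mul_eq_one_left (h2 a ha)]
  have h8 : ∀ a < 12, g 0 * g a ∈ (commutator X).map X.subtype := fun a ha => by
    by_cases a1 : 1 < a
    · exact h6 0 (by decide) a ha (h3 a ha a1)
    rcases (by omega : a = 0 ∨ a = 1) with rfl | rfl
    · exact h2 0 ha ▸ one_mem _
    · have := mul_mem (h6 0 (by decide) 3 (by decide) (h3 3 (by decide) (by decide))) (inv_mem (h6 1 ha 3 (by decide) h4))
      rwa [mul_inv_rev, mul_assoc, mul_inv_cancel_left, inv_eq_of_mul_eq_one_left (h2 1 ha)] at this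
  obtain ⟨d, hd, e⟩ : cst s Ω (.ofAdd 2) ∈ (commutator X).map X.subtype :=
    hz ▸ pow_mem (list_prod_mem (List.forall_mem_map.2 fun p hp => by
      rw [h7 _ (hw p hp).1 _ (hw p hp).2]; exact mul_mem (inv_mem (h8 _ (hw p hp).1)) (h8 _ (hw p hp).2))) 17
  refine schur_aux ξ sj hc X.subtype (cst s Ω) (fun a b e => ?_) hk (MonoidHom.id _) (fun H hH a => ?_)
    fun Γ _ _ σ hσ => (hle Γ σ hσ).trans (by simp)
  · exact congrFun (congrArg (fun x : SD s Ω => x.left.toAdd) e) (Classical.arbitrary Ω)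
  · have := hH d (Subtype.ext (congrArg SemidirectProduct.right e)) hd _ e
    rcases (by revert a; decide : a = 1 ∨ a = .ofAdd 2 ∨ a = .ofAdd 2 * .ofAdd 2) with rfl | rfl | rfl
    exacts [one_mem _, this, mul_mem this this]

variable {n : ℕ} {L : List Net} (M : PM G Ω n L) (Λ : List (ℕ × ℕ))

def pl (X : ℕ × ℕ) : A Ω := .ofAdd fun x => v X (M.enc x)

noncomputable def mv (L : List Net) (a : ℕ) (X : ℕ × ℕ) : ℕ × ℕ :=
  cond (Nat.blt a 26) ((letN L a).run X.2, (letN L a).run X.1) ((letN L a).run X.1, (letN L a).run X.2)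

noncomputable def lab (L : List Net) (a : ℕ) : ℕ × ℕ :=
  cond (Nat.beq (Nat.mod a 2) 0) (getL (0, 0) Λ (Nat.div a 2)) (mv L a (getL (0, 0) Λ (Nat.div a 2)).swap)

noncomputable def acc (L : List Net) (w : Word) : ℕ × ℕ → ℕ × ℕ :=
  @List.rec ℕ (fun _ => ℕ × ℕ → ℕ × ℕ) (fun X => X)
    (fun a _ ih X => (fun Y => lit Y.1 fun p => lit Y.2 fun q => ih (p, q)) (add3 (lab Λ L a) (mv L a X))) w

noncomputable def chk (L : List Net) (l : List (Word × Word)) : Bool := l.all fun p =>
  (p.1 ++ p.2).all (Nat.blt · 28) && (fun X Y : ℕ × ℕ => Nat.beq X.1 Y.1 && Nat.beq X.2 Y.2)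
    (acc Λ L p.1 (0, 0)) (acc Λ L p.2 (0, 0))

noncomputable def gh (l : ℕ) : SD s Ω := ⟨pl M (getL (0, 0) Λ l), M.gen l⟩

variable {s M Λ} (hs : ∀ l < 14, s (M.gen l) = if l < 13 then -1 else 1)
include hs

theorem act_pl {a : ℕ} (ha : a < 28) (X : ℕ × ℕ) : act s (letter M.gen a) (pl M X) = pl M (mv L a X) := by
  have e : s (letter M.gen a) = if a < 26 then -1 else 1 := by
    have : s (letter M.gen a) = s (M.gen (a / 2)) := by unfold letter; split_ifs <;> simp
    rw [this, hs _ (by omega)]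
    exact if_congr (by omega) rfl rfl
  refine congrArg Multiplicative.ofAdd (funext fun x => ?_)
  have k : ∀ Y : ℕ, ((letN L a).run Y).testBit (M.enc x) = Y.testBit (M.enc ((letter M.gen a)⁻¹ • x)) := fun Y => by
    rw [← Net.testBit_run (ok_letN M.ok a) Y, ← M.spec_letter, smul_inv_smul]
  show s _ • v X _ = _
  rw [e, mv]
  by_cases h : a < 26
  · rw [if_pos h, Nat.blt_eq.mpr h, cond_true, Units.neg_smul, one_smul, ← v_swap]
    simp only [v, k, Prod.fst_swap, Prod.snd_swap]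
  · rw [if_neg h, Bool.eq_false_iff.2 (mt Nat.blt_eq.mp h), cond_false, one_smul]
    simp only [v, k]

theorem letter_gh {a : ℕ} (ha : a < 28) : letter (gh s M Λ) a = ⟨pl M (lab Λ L a), letter M.gen a⟩ := by
  have := act_pl hs ha (getL (0, 0) Λ (a / 2)).swap
  unfold letter lab at *
  by_cases h : a % 2 = 0
  · rw [if_pos h, if_pos h, show Nat.beq (Nat.mod a 2) 0 = true from Nat.beq_eq.mpr h]; rfl
  · rw [if_neg h] at this
    rw [if_neg h, if_neg h, show Nat.beq (Nat.mod a 2) 0 = false from Bool.eq_false_iff.2 (mt Nat.beq_eq.mp h)]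
    refine SemidirectProduct.ext (Eq.trans ?_ this) rfl
    have k : ∀ X, (pl M X)⁻¹ = pl M X.swap := fun X => by
      refine congrArg Multiplicative.ofAdd (funext fun x : Ω => ?_)
      exact (v_swap X (M.enc x)).symm
    exact congrArg (act s (M.gen (a / 2))⁻¹) (k _)

theorem ev_gh (w : Word) (hw : ∀ a ∈ w, a < 28) (X : ℕ × ℕ) (h : G) :
    ev (gh s M Λ) w * ⟨pl M X, h⟩ = ⟨pl M (acc Λ L w X), ev M.gen w * h⟩ := by
  induction w generalizing X h with
  | nil => exact (one_mul _).trans (congrArg _ (one_mul h).symm)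
  | cons a w ih =>
    have ha := hw a List.mem_cons_self
    have e : acc Λ L (a :: w) X = acc Λ L w (add3 (lab Λ L a) (mv L a X)) :=
      by
        generalize hY : add3 (lab Λ L a) (mv L a X) = Y
        show lit (add3 _ _).1 (fun p => lit (add3 _ _).2 fun q => acc Λ L w (p, q)) = _
        rw [hY, lit_eq, lit_eq]
    rw [e, ev_cons, ev_cons, mul_assoc, mul_assoc, ← ih fun b hb => hw b (List.mem_cons_of_mem _ hb), letter_gh hs ha]
    refine congrArg _ (SemidirectProduct.ext ?_ rfl)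
    exact (congrArg (pl M (lab Λ L a) * ·) (act_pl hs ha X)).trans
      (congrArg Multiplicative.ofAdd (funext fun x => (v_add3 _ _ _).symm))

theorem ev_gh' (w : Word) (hw : ∀ a ∈ w, a < 28) :
    ev (gh s M Λ) w = ⟨pl M (acc Λ L w (0, 0)), ev M.gen w⟩ := by
  have := ev_gh (Λ := Λ) hs w hw (0, 0) 1
  rwa [show pl M (0, 0) = 1 from congrArg Multiplicative.ofAdd (funext fun x => v_zero _), mul_one,
    show (⟨1, 1⟩ : SD s Ω) = 1 from rfl, mul_one] at this

theorem rels_gh {l : List (Word × Word)} (h : Rels M.gen l) (hc : chk Λ L l = true) : Rels (gh s M Λ) l := fun p hp => by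
  have := List.all_eq_true.1 hc p hp
  simp only [Bool.and_eq_true, List.all_eq_true, Nat.blt_eq, List.forall_mem_append, Nat.beq_eq] at this
  rw [ev_gh' hs _ this.1.1, ev_gh' hs _ this.1.2, h p hp, Prod.ext this.2.1 this.2.2]

end L.F3
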