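import Cfsg.Agent.L.DK2
import Cfsg.Agent.L.F3C
import Cfsg.Agent.L.Out2

/-! The checker of `L.DK` with bit planes for the prime three and one commuting pair of lifts. -/

set_option autoImplicit false

namespace L.DK
open Subgroup L.F3
open scoped IsMulCommutative

variable {Γ : Type*} [Group Γ]

noncomputable def addr (X Y : ℕ × ℕ) : ℕ × ℕ := @Prod.rec _ _ (fun _ => ℕ × ℕ) (fun a b => add3 X (a, b)) Y

section
variable {A : Type*} [CommGroup A] {c : ℕ → A}

def val3 (c : ℕ → A) (X : ℕ × ℕ) : A := ∏ j ∈ Finset.range 1024, c j ^ (v X j).val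

theorem val3_eq (c : ℕ → A) (a : ℕ) : val3 c (a, a) = 1 := Finset.prod_eq_one fun j _ => by
  rw [v]; cases a.testBit j <;> exact pow_zero _

theorem val3_add (h : ∀ j, c j ^ (2 + 1) = 1) (X Y : ℕ × ℕ) : val3 c (addr X Y) = val3 c X * val3 c Y := by
  rw [show addr X Y = add3 X Y from rfl, val3, val3, val3, ← Finset.prod_mul_distrib]
  refine Finset.prod_congr rfl fun j _ => ?_
  rw [v_add3, ZMod.val_add, ← pow_add, ← pow_eq_pow_mod _ (h j)]

theorem val3_swap (h : ∀ j, c j ^ (2 + 1) = 1) (X : ℕ × ℕ) : val3 c X.swap = (val3 c X)⁻¹ := by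
  rw [eq_inv_iff_mul_eq_one, val3, val3, ← Finset.prod_mul_distrib]
  refine Finset.prod_eq_one fun j _ => ?_
  rw [v_swap, ← pow_add, pow_eq_pow_mod _ (h j), ← ZMod.val_add, neg_add_cancel]
  exact pow_zero _

theorem val3_unit (c : ℕ → A) {j : ℕ} (hj : j < 1024) : val3 c (Nat.shiftLeft 1 j, 0) = c j := by
  rw [val3, show Nat.shiftLeft 1 j = 2 ^ j from Nat.one_shiftLeft j,
    Finset.prod_eq_single_of_mem j (Finset.mem_range.2 hj) fun i _ hi => by simp [v, hi.symm]]
  rw [v, Nat.testBit_two_pow_self, Nat.zero_testBit]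
  exact pow_one _
end

noncomputable def run3 (R : Rl) : List ℕ → List ℕ → ℕ × ℕ → Option (List ℕ × ℕ × ℕ)
  | [], w, X => some (w, X)
  | s :: p, w, X => (fun j => (fun r => cond (Nat.beq (Nat.mod s 2) 0)
      ((rep r.1 r.2 (Nat.div s 2048) w).bind fun w' => run3 R p w' (addr (Nat.shiftLeft 1 j, 0) X))
      ((rep r.2 r.1 (Nat.div s 2048) w).bind fun w' => run3 R p w' (addr (Nat.shiftLeft 1 j, 0).swap X)))
      (R.getD j ([], []))) (Nat.mod (Nat.div s 2) 1024)

noncomputable def relv3 (R : Rl) (d : ℕ × ℕ) : ℕ × ℕ :=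
  ((run3 R (dw24 d.2) (H14.dw d.1) (0, 0)).map fun x => cond (x.1 == H14.dw d.1) x.2 (0, 0)).getD (0, 0)

noncomputable def vs3 (V : List (ℕ × ℕ)) (w : List ℕ) : ℕ × ℕ := w.foldr (fun l s => addr (V.getD l (0, 0)) s) (0, 0)

noncomputable def lc3 (W : List (ℕ × ℕ)) : ℕ → ℕ × ℕ :=
  @List.rec _ (fun _ => ℕ → ℕ × ℕ) (fun _ => (0, 0)) (fun X _ ih b => lit b fun b =>
    cond (Nat.beq (Nat.mod b 4) 0) (ih (Nat.div b 4))
      (addr (cond (Nat.beq (Nat.mod b 4) 1) X X.swap) (ih (Nat.div b 4)))) W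

noncomputable def z3 (X : ℕ × ℕ) : Bool := @Prod.rec _ _ (fun _ => Bool) Nat.beq X

noncomputable def fin3 (R : Rl) (V W : List (ℕ × ℕ)) (B : List ℕ) (j : ℕ) : Bool := Nat.blt j 1024 &&
  z3 (addr (Nat.shiftLeft 1 j, 0) (addr (vs3 V (R.getD j ([], [])).1)
    (addr (vs3 V (R.getD j ([], [])).2).swap (lc3 W (B.getD j 0)))))

section
variable {R : Rl} {y : ℕ → Γ} {c : ℕ → center Γ} (hq : ∀ j, c j ^ (2 + 1) = 1)
  (hc : ∀ j, pr y (R.getD j ([], [])).1 = pr y (R.getD j ([], [])).2 * c j)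
include hq hc

theorem run3_spec : ∀ {p w : List ℕ} {X : ℕ × ℕ} {x : List ℕ × ℕ × ℕ}, run3 R p w X = some x →
    pr y w * (val3 c X : center Γ) = pr y x.1 * (val3 c x.2 : center Γ)
  | [], _, _, _, h => by cases h; rfl
  | s :: p, w, X, x, h => by
    rw [run3] at h
    beta_reduce at h
    have hu := val3_unit c (j := Nat.mod (Nat.div s 2) 1024) (Nat.mod_lt _ (by decide))
    cases e : Nat.beq (Nat.mod s 2) 0
    · rw [e, cond_false] at h
      obtain ⟨w', h1, h2⟩ := Option.bind_eq_some_iff.1 h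
      obtain ⟨u, t, rfl, rfl⟩ := rep_spec h1
      rw [← run3_spec h2, val3_add hq, val3_swap hq, hu, pr_rep (hc _), mul_assoc, ← coe_mul, mul_inv_cancel_left]
    · rw [e, cond_true] at h
      obtain ⟨w', h1, h2⟩ := Option.bind_eq_some_iff.1 h
      obtain ⟨u, t, rfl, rfl⟩ := rep_spec h1
      rw [← run3_spec h2, val3_add hq, hu, pr_rep (hc _), coe_mul, mul_assoc]

theorem val_relv3 (d : ℕ × ℕ) : val3 c (relv3 R d) = 1 := by
  unfold relv3
  cases h : run3 R (dw24 d.2) (H14.dw d.1) (0, 0) with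
  | none => exact val3_eq c 0
  | some x =>
    rw [Option.map_some, Option.getD_some]
    cases e : x.1 == H14.dw d.1
    · exact val3_eq c 0
    have := run3_spec hq hc h
    rw [← eq_of_beq e, val3_eq] at this
    exact Subtype.ext (mul_left_cancel this).symm

omit hc in
theorem val_lc3 : ∀ (W : List (ℕ × ℕ)) (b : ℕ), (∀ X ∈ W, val3 c X = 1) → val3 c (lc3 W b) = 1
  | [], _, _ => val3_eq c 0
  | X :: W, b, h => by
    have := val_lc3 W (Nat.div b 4) fun _ hv => h _ (List.mem_cons_of_mem _ hv)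
    rw [show lc3 (X :: W) b = _ from lit_eq b fun b => cond (Nat.beq (Nat.mod b 4) 0) (lc3 W (Nat.div b 4))
      (addr (cond (Nat.beq (Nat.mod b 4) 1) X X.swap) (lc3 W (Nat.div b 4)))]
    cases Nat.beq (Nat.mod b 4) 0
    · rw [cond_false, val3_add hq, this, mul_one]
      cases Nat.beq (Nat.mod b 4) 1
      · rw [cond_false, val3_swap hq, h X List.mem_cons_self, inv_one]
      · exact h X List.mem_cons_self
    · exact this

omit hc in
theorem pr_gauge3 (V : List (ℕ × ℕ)) (w : List ℕ) :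
    pr (fun l => y l * (val3 c (V.getD l (0, 0)) : center Γ)) w = pr y w * (val3 c (vs3 V w) : center Γ) := by
  induction w with
  | nil => exact (mul_one _).symm.trans (congrArg (fun z : center Γ => _ * (z : Γ)) (val3_eq c 0).symm)
  | cons a w ih =>
    simp only [pr, List.map_cons, List.prod_cons] at ih ⊢
    rw [ih, show vs3 V (a :: w) = addr (V.getD a (0, 0)) (vs3 V w) from rfl, val3_add hq, coe_mul, mul_assoc,
      ← mul_assoc (_ : center Γ).1, ← mem_center_iff.1 (val3 c (V.getD a (0, 0))).2]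
    simp only [mul_assoc]
end

/-- the first `n` relations can be lifted exactly if the relation `i` lifts -/
def LftC (q n i : ℕ) (R : Rl) : Prop := ∀ (Γ : Type) [Group Γ] (y : ℕ → Γ) (c : ℕ → center Γ) (K : Subgroup (center Γ)),
  (∀ j, c j ∈ K) → (∀ j, c j ^ (q + 1) = 1) → (∀ j, pr y (R.getD j ([], [])).1 = pr y (R.getD j ([], [])).2 * c j) →
  c i = 1 → ∃ a : ℕ → center Γ, (∀ l, a l ∈ K) ∧ ∀ j < n, pr (fun l => y l * a l) (R.getD j ([], [])).1 =
    pr (fun l => y l * a l) (R.getD j ([], [])).2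

theorem lft3 {n i : ℕ} {R : Rl} {V W : List (ℕ × ℕ)} {B : List ℕ} {D : List (ℕ × ℕ)} (hi : i < 1024)
    (hW : D.map (relv3 R) = W) (hf : (List.range n).all (fin3 R V ((Nat.shiftLeft 1 i, 0) :: W) B) = true) :
    LftC 2 n i R := fun Γ _ y c K hK hq hc h0 =>
  ⟨fun l => val3 c (V.getD l (0, 0)), fun l => prod_mem fun j _ => pow_mem (hK j) _, fun j hj => by
    have h := List.all_eq_true.1 hf j (List.mem_range.2 hj)
    rw [fin3, Bool.and_eq_true, Nat.blt_eq] at h
    have k : ∀ X : ℕ × ℕ, z3 X = true → val3 c X = 1 := fun ⟨a, b⟩ e =>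
      Nat.eq_of_beq_eq_true (n := a) (m := b) e ▸ val3_eq c a
    have := k _ h.2
    rw [val3_add hq, val3_add hq, val3_add hq, val3_unit c h.1, val3_swap hq, val_lc3 hq _ _ (List.forall_mem_cons.2
      ⟨(val3_unit c hi).trans h0, by rw [← hW]; exact List.forall_mem_map.2 fun d _ => val_relv3 hq hc d⟩), mul_one,
      ← mul_assoc, mul_inv_eq_one] at this
    rw [pr_gauge3 hq, pr_gauge3 hq, hc, mul_assoc, ← coe_mul, this]⟩

theorem kerTrivC {G : Type} [Group G] [Finite G] {q k n i : ℕ} {R : Rl} {u w : List ℕ}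
    (hp : (q + 1).Prime) (h : Shape (q + 1) k n R) (hL : LftC q n i R) (hi : R.getD i ([], []) = (u ++ w, w ++ u))
    {x : ℕ → G} (hx : ∀ r ∈ R, pr x r.1 = pr x r.2)
    (hc : (q + 1) ^ k ≤ Nat.card (Nn x k 0)) (hG : ¬(q + 1) ^ (k + 1) ∣ Nat.card G) :
    KerTriv G (q + 1) [(pr x u, pr x w)] := by
  refine kerTriv_of_sec fun Γ _ _ σ hσ hC => ?_
  choose s hs using hσ.surj
  have h0 : ∀ j, pr x (R.getD j ([], [])).1 = pr x (R.getD j ([], [])).2 := fun j => by
    rw [List.getD_eq_getElem?_getD]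
    cases e : R[j]? with
    | none => rfl
    | some r => exact hx r (List.mem_of_getElem? e)
  have h1 : ∀ j, (pr (fun l => s (x l)) (R.getD j ([], [])).2)⁻¹ * pr (fun l => s (x l)) (R.getD j ([], [])).1 ∈ σ.ker :=
    fun j => by
      rw [MonoidHom.mem_ker, map_mul, map_inv, map_pr, map_pr]
      simp only [hs, h0, inv_mul_cancel]
  obtain ⟨a, ha, hb⟩ := hL Γ (fun l => s (x l)) (fun j => ⟨_, hσ.cent (h1 j)⟩) (σ.ker.subgroupOf _) h1
    (fun j => Subtype.ext (hσ.exp _ (h1 j))) (fun j => (mul_inv_cancel_left _ _).symm) (Subtype.ext (by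
      have := hC _ List.mem_cons_self (pr (fun l => s (x l)) u) (pr (fun l => s (x l)) w)
        (by simp only [map_pr, hs]) (by simp only [map_pr, hs])
      simp only [hi, pr, List.map_append, List.prod_append] at this ⊢
      rw [this]
      exact inv_mul_cancel _))
  let y : ℕ → Γ := fun l => s (x l) * a l
  have e : (Nn y k 0).map σ = Nn x k 0 := by
    rw [map_Nn]; congr 1; funext l
    rw [map_mul, hs, show σ (a l) = 1 from ha l, mul_one]
  have hle : Nat.card (Nn x k 0) ≤ Nat.card (Nn y k 0) :=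
    e ▸ Nat.card_le_card_of_surjective _ (σ.subgroupMap_surjective _)
  have hy := card_pc hp.one_lt h (y := y) hb (hc.trans hle)
  refine sec_gas hσ le_top ?_ (e ▸ sec_of_card_le (by rw [e, hy]; exact hc))
  rw [relIndex_top_right, hp.coprime_iff_not_dvd]
  refine fun hd => hG ?_
  rw [← (Nn x k 0).card_mul_index, le_antisymm (hy ▸ hle) hc, pow_succ]
  exact Nat.mul_dvd_mul_left _ hd

theorem exists_sub (G : Subgroup Γ) {g : ℕ → Γ} {o N k : ℕ} {R : Rl} (hm : ∀ l < N, g (o + l) ∈ G)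
    (hx : H14.Rels g (R.map fun r => (wd o r.1, wd o r.2)))
    (hb : (R.all (fun r => (r.1 ++ r.2).all (Nat.blt · N)) && Nat.ble k N) = true) :
    ∃ x : ℕ → G, (∀ r ∈ R, pr x r.1 = pr x r.2) ∧ Nat.card (Nn x k 0) = Nat.card (Nn (fun l => g (o + l)) k 0) := by
  simp only [Bool.and_eq_true, List.all_eq_true, Nat.blt_eq, Nat.ble_eq, List.forall_mem_append] at hb
  obtain ⟨b1, b3⟩ := hb
  let x : ℕ → G := fun l => if h : l < N then ⟨g (o + l), hm _ h⟩ else 1
  have e : ∀ w : List ℕ, (∀ l ∈ w, l < N) → (pr x w : G) = H14.ev g (wd o w) := fun w hw => by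
    rw [ev_wd]
    refine (map_pr G.subtype x w).trans (congrArg List.prod (List.map_congr_left fun l hl => ?_))
    simp only [x, dif_pos (hw l hl), coe_subtype]
  refine ⟨x, fun r hr => Subtype.ext ?_, ?_⟩
  · rw [e _ (b1 r hr).1, e _ (b1 r hr).2]
    exact hx _ (List.mem_map_of_mem hr)
  · have e1 : (Nn x k 0).map G.subtype = Nn (fun l => g (o + l)) k 0 := by
      rw [map_Nn, Nn, Nn]
      congr 1
      ext t
      refine exists_congr fun l => and_congr_right fun _ => and_congr_right fun hl => ?_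
      simp only [x, dif_pos (hl.trans_le b3), coe_subtype]
    exact e1 ▸ (card_map_of_injective (K := Nn x k 0) G.subtype_injective).symm

theorem card_pc' [Finite Γ] {p k n : ℕ} {R : Rl} (hp : 1 < p) (h : Shape p k n R) {y : ℕ → Γ}
    (hy : ∀ j < n, pr y (R.getD j ([], [])).1 = pr y (R.getD j ([], [])).2) (hc : p ^ k ≤ Nat.card (Nn y k 0)) :
    ∀ i ≤ k, Nat.card (Nn y k i) = p ^ (k - i) := by
  refine (pc_of_card hp (fun i hi => ⟨?_, ?_⟩) hc).2
  · refine (inv_mem_iff.1 (mem_normalizer_fintype fun g hg => ?_))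
    refine (show Nn y k (i + 1) ≤ (Nn y k (i + 1)).comap (MulAut.conj (y i)⁻¹).toMonoidHom from (closure_le _).2 ?_) hg
    rintro _ ⟨m, h1, h2, rfl⟩
    obtain ⟨j, hj, e1, e2, e3⟩ := (h i hi).2 m h2 h1
    have := hy j hj
    obtain ⟨t, e⟩ := List.head?_eq_some_iff.1 e2
    rw [e] at e3 this
    rw [e1] at this
    have e4 : (y i)⁻¹ * y m * (y i)⁻¹⁻¹ = pr y t := by
      simp only [pr, List.map_cons, List.prod_cons, List.map_nil, List.prod_nil, mul_one] at this
      rw [inv_inv, mul_assoc, this, inv_mul_cancel_left]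
    exact show _ * _ * _ ∈ _ from e4 ▸ pr_mem fun l hl => gen_mem_Nn (e3 l hl).1 (e3 l hl).2
  · obtain ⟨j, hj, e1, e2⟩ := (h i hi).1
    have := hy j hj
    rw [e1, pr, List.map_replicate, List.prod_replicate] at this
    exact this ▸ pr_mem fun l hl => gen_mem_Nn (e2 l hl).1 (e2 l hl).2

theorem Nn_shift (y : ℕ → Γ) (k : ℕ) : Nn (fun l => y (1 + l)) k 0 = Nn y (k + 1) 1 := by
  rw [Nn, Nn]
  congr 1
  ext t
  exact ⟨fun ⟨l, _, b, e⟩ => ⟨1 + l, by omega, by omega, e⟩,
    fun ⟨l, a, b, e⟩ => ⟨l - 1, by omega, by omega, by rwa [show 1 + (l - 1) = l by omega]⟩⟩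

/-- generators of one polycyclic series as words in those of another -/
noncomputable def leR (ws ys : List H14.Word) (f : ℕ → H14.Word) (m : ℕ) : List (H14.Word × H14.Word) :=
  (List.range m).map fun i => (H14.getL [] ws i, H14.flat ys (f i))

theorem card_le_loc [Finite Γ] {gen : ℕ → Γ} {ws ys : List H14.Word} {f : ℕ → H14.Word} {m k : ℕ}
    (h : H14.Rels gen (leR ws ys f m)) (hf : ∀ i < m, ∀ a ∈ f i, a / 2 < k) :
    Nat.card (Nn (loc gen ws) m 0) ≤ Nat.card (Nn (fun l => loc gen ys (0 + l)) k 0) :=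
  card_le_of_le ((closure_le _).2 (by
    rintro _ ⟨i, -, hi, rfl⟩
    have := h _ (List.mem_map_of_mem (List.mem_range.2 hi))
    simp only [Nat.zero_add]
    rw [show loc gen ws i = _ from this.trans (ev_flat gen ys _)]
    exact ev_mem_of fun a ha => gen_mem_Nn (Nat.zero_le _) (hf i hi a ha)))

end L.DK
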