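import Cfsg.Agent.L.F24S
import Cfsg.Agent.L.F24C

/-! The Schur multiplier of the largest Fischer group has order three. -/

set_option autoImplicit false
set_option maxRecDepth 100000

namespace L.F24S
open H14 Cfsg Cfsg.Spor Subgroup L.DK H15.Fi24
open H15 hiding ev ev_append pr

def tt (l : ℕ) : ℤˣ := if l < 13 ∨ l = 26 then -1 else 1

theorem sg27 : ∀ l < 27, sg (M.gen l) = tt l := fun l hl => by
  have h := Fi24P.relsD_ok M
  have h' : ∀ p ∈ Fi24P.relsD, ev tt p.1 = ev tt p.2 := by decide +kernel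
  have e1 : ∀ w, (ev (fun l => (M.gen l, tt l)) w).1 = ev M.gen w := H14.map_ev (MonoidHom.fst Spor.Fi24 ℤˣ)
  have e2 : ∀ w, (ev (fun l => (M.gen l, tt l)) w).2 = ev tt w := H14.map_ev (MonoidHom.snd Spor.Fi24 ℤˣ)
  let X : Subgroup (Spor.Fi24 × ℤˣ) := (sg.comp (MonoidHom.fst Spor.Fi24 ℤˣ)).eqLocus (MonoidHom.snd Spor.Fi24 ℤˣ)
  have hX : ∀ l, (M.gen l, tt l) ∈ X ↔ sg (M.gen l) = tt l := fun _ => Iff.rfl
  exact (hX l).1 (gen_mem_of_defRels (gen := fun l => (M.gen l, tt l)) (lo := 0) (k := 12) (ds := Fi24P.defs)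
    (fun l _ hl => (hX l).2 ((sg_M l hl).trans (if_pos (by omega)).symm)) (by decide +kernel)
    (fun p hp => Prod.ext (by rw [e1, e1, h p hp]) (by rw [e2, e2, h' p hp]))
    l (Nat.zero_le _) (hl.trans_le (by decide +kernel)))

theorem mem {ys : List Word} {o N : ℕ}
    (h : ∀ l < N, (∀ a ∈ getL [] ys (o + l), a < 2 * 27) ∧ ev tt (getL [] ys (o + l)) = 1) :
    ∀ l < N, loc M.gen ys (o + l) ∈ commutator Spor.Fi24 := fun l hl => comm.1.ge (by
  rw [MonoidHom.mem_ker, loc, H14.map_ev, H14.ev_congr sg27 (h l hl).1, (h l hl).2])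

theorem getD_rel {Γ : Type*} [Group Γ] {x : ℕ → Γ} {R : Rl} (hx : ∀ r ∈ R, pr x r.1 = pr x r.2) (j : ℕ) :
    pr x (R.getD j ([], [])).1 = pr x (R.getD j ([], [])).2 := by
  rw [List.getD_eq_getElem?_getD]
  cases e : R[j]? with
  | none => rfl
  | some r => exact hx r (List.mem_of_getElem? e)

theorem le3 (Γ : Type) [Group Γ] [Finite Γ] (σ : Γ →* commutator Spor.Fi24) (hσ : IsStemExtension σ) :
    Nat.card σ.ker ≤ 3 := by
  have : Finite Spor.Fi24 := Nat.finite_of_card_ne_zero (by rw [card]; decide)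
  have hb := K24.base0 M card
  obtain ⟨x, hx, ex⟩ := exists_sub _ (N := 18) (k := 16) (mem (by decide +kernel)) (rels_loc (r3 hb)) (by decide +kernel)
  have hx' : ∀ r ∈ R3, pr x r.1 = pr x r.2 := fun r hr => hx r (List.mem_cons_of_mem _ hr)
  refine card_ker_le (C := [((pr x [7, 9], pr x [3, 13, 15, 15]), 3)]) (fun p hp => ?_) (fun q hq => ?_) Γ σ hσ
  swap
  · rw [List.mem_singleton.1 hq]
    refine ⟨?_, ?_, Nat.succ_pos 2⟩
    · have := hx' ([7, 9] ++ [3, 13, 15, 15], [3, 13, 15, 15] ++ [7, 9]) (by decide +kernel)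
      simpa only [pr, List.map_append, List.prod_append] using this
    · have := hx _ List.mem_cons_self
      simp only [pr, List.map_append, List.prod_append] at this
      rw [pow_three']
      exact this
  by_cases a3 : p = 3
  · subst a3
    exact kerTrivC Nat.prime_three s3 (lft3 (by decide) w3 c3) (by decide +kernel) hx' (ex ▸ (((V24x3.pc M card).2 0
      (by decide)).ge.trans (card_le_loc (rels_base hb l3) (by decide)))) (by rw [card_comm]; norm_num)
  suffices h : KerTriv (commutator Spor.Fi24) p [] from fun Γ _ _ σ h1 h2 _ => h Γ σ h1 h2 (by simp)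
  by_cases a2 : p = 2
  · subst a2
    obtain ⟨x, hx, ex⟩ := exists_sub _ (N := 25) (k := 21) (mem (by decide +kernel)) (rels_loc (r2 hb))
      (by decide +kernel)
    refine kerTriv' Nat.prime_two s2 (lft2 w2 c2) hx (ex ▸ ?_) (by rw [card_comm]; norm_num)
    have q0 := rels_loc (rels_base hb r0)
    have q2 := rels_loc (r2 hb)
    have := card_pc' (by decide) s0 (y := loc M.gen y2) (fun j _ => getD_rel (fun r hr => ?_) j)
      (((V24x2.pc M card).2 0 (by decide)).ge.trans ((card_le_loc (k := 22) (rels_base hb l2) (by decide)).trans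
        (by simp only [Nat.zero_add, le_refl]))) 1 (by decide)
    · rw [Nn_shift, this]
    rcases List.mem_append.1 hr with h | h
    · have := q0 _ (List.mem_map_of_mem h)
      simpa only [ev_wd, Nat.zero_add] using this
    · obtain ⟨r, h', rfl⟩ := List.mem_map.1 h
      have := q2 _ (List.mem_map_of_mem (List.mem_of_mem_take h'))
      simpa only [ev_wd, pr, List.map_map, Function.comp_def, Nat.succ_eq_add_one, Nat.add_comm 1] using this
  by_cases a5 : p = 5
  · subst a5
    obtain ⟨x, hx, ex⟩ := exists_sub _ (N := 4) (k := 2) (mem (by decide +kernel)) (rels_loc (rels_base hb r5))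
      (by decide +kernel)
    exact kerTriv' (by norm_num) s5 (lft1 w5 c5) hx (ex ▸ (((V24x5.pc M card).2 0
      (by decide)).ge.trans (card_le_loc (rels_base hb l5) (by decide)))) (by rw [card_comm]; norm_num)
  by_cases a7 : p = 7
  · subst a7
    obtain ⟨x, hx, ex⟩ := exists_sub _ (N := 4) (k := 3) (mem (by decide +kernel)) (rels_loc (rels_base hb r7))
      (by decide +kernel)
    exact kerTriv' (by norm_num) s7 (lft1 w7 c7) hx (ex ▸ (((V24x7.pc M card).2 0
      (by decide)).ge.trans (card_le_loc (rels_base hb l7) (by decide)))) (by rw [card_comm]; norm_num)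
  refine kerTriv_of_not_sq hp (fun h => ?_) _
  rw [card_comm, show 1255205709190661721292800 = 2 ^ 21 * 3 ^ 16 * 5 ^ 2 * 7 ^ 3 * (11 * 13 * 17 * 23 * 29) by
    norm_num] at h
  have h' := Nat.Coprime.dvd_of_dvd_mul_left (Nat.Coprime.pow_left 2 (Nat.Coprime.mul_right (Nat.Coprime.mul_right
    (Nat.Coprime.mul_right (((Nat.coprime_primes hp Nat.prime_two).2 a2).pow_right _)
    (((Nat.coprime_primes hp Nat.prime_three).2 a3).pow_right _))
    (((Nat.coprime_primes hp (by norm_num)).2 a5).pow_right _))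
    (((Nat.coprime_primes hp (by norm_num)).2 a7).pow_right _))) h
  exact (Nat.squarefree_iff_prime_squarefree.1 (by decide +kernel : Squarefree (11 * 13 * 17 * 23 * 29)) p hp)
    (by rwa [← sq])

theorem schur : HasCyclicSchurMultiplier Fi24' 3 := F24C.schur le3

end L.F24S
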