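import Cfsg.Agent.H14.Dw
import Cfsg.Agent.H15.Mat

/-! A checker for identities among the relations of a lifted Steinberg presentation over the field with two elements:
the defects `c r s` of the relations are powers of one central element. -/

set_option autoImplicit false

namespace L.F4
open H15

/-- tables: commutator words, exponents, order of derivation, targets -/
structure Tb where
  w : ℕ
  e : ℕ
  o : ℕ
  t : ℕ

namespace Tb
variable (T : Tb)

def W (r s : ℕ) : List ℕ :=
  (fun f => cond (Nat.beq (Nat.mod f 4) 0) [] (cond (Nat.beq (Nat.mod f 4) 1) [Nat.div f 4]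
    [Nat.mod (Nat.div f 4) 64, Nat.div f 256])) (fld 14 T.w (Nat.add (Nat.mul 48 r) s))
def E (r s : ℕ) : ℤ := Int.subNatNat (fld 2 T.e (Nat.add (Nat.mul 48 r) s)) 1
def O (r s : ℕ) : ℕ := fld 12 T.o (Nat.add (Nat.mul 48 r) s)
def rhs (r s : ℕ) : List ℕ := cond (Nat.beq r s) [] (r :: s :: T.W r s)
def okp (r s : ℕ) : Bool := Nat.blt r 48 && (Nat.blt s 48 && !(Nat.beq (Nat.add r s) 47))

def step : ℕ → List ℕ → Option (ℕ × ℕ × List ℕ)
  | 0, s :: r :: t => some (r, s, T.rhs r s ++ t)
  | i + 1, a :: t => (step i t).map fun x => (x.1, x.2.1, a :: x.2.2)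
  | _, _ => none

def run (j : ℕ) : List ℕ → List ℕ → ℤ → List ℕ → Option (List ℕ × ℤ × List ℕ)
  | [], w, e, n => some (w, e, n)
  | i :: p, w, e, n => (T.step i w).bind fun x => cond (okp x.1 x.2.1)
    (cond (Nat.blt (T.O x.1 x.2.1) j) (run j p x.2.2 (Int.add e (T.E x.1 x.2.1)) n)
      (run j p x.2.2 e (Nat.add (Nat.mul 48 x.1) x.2.1 :: n))) none

/-- the two rewritings agree, the first uses the unknown defects `m` in addition and the exponents differ by `a` -/
noncomputable def chk (j : ℕ) (m : List ℕ) (a : ℤ) (d : ℕ × ℕ × ℕ) : Bool :=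
  ((T.run j (H14.dw d.2.1) (H14.dw d.1) 0 []).bind fun x => (T.run j (H14.dw d.2.2) (H14.dw d.1) 0 []).map fun y =>
    x.1 == y.1 && (x.2.2.isPerm (m ++ y.2.2) && y.2.1 == Int.add x.2.1 a)).getD false

noncomputable def all (L : List (ℕ × ℕ × ℕ)) : ℕ → Bool :=
  @List.rec _ (fun _ => ℕ → Bool) (fun _ => true) (fun d _ ih j =>
    T.chk j [fld 12 T.t j] (T.E (Nat.div (fld 12 T.t j) 48) (Nat.mod (fld 12 T.t j) 48)) d && ih (Nat.succ j)) L

variable {T} {Γ : Type*} [Group Γ] {y : ℕ → Γ} {c : ℕ → ℕ → Γ} {z : Γ}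
  (hc : (∀ r s, okp r s = true → y s * y r = ((T.rhs r s).map y).prod * c r s) ∧ ∀ r s g, g * c r s = c r s * g)

theorem step_spec : ∀ {i : ℕ} {w : List ℕ} {x : ℕ × ℕ × List ℕ}, T.step i w = some x →
    ∃ u v, w = u ++ x.2.1 :: x.1 :: v ∧ x.2.2 = u ++ (T.rhs x.1 x.2.1 ++ v)
  | 0, s :: r :: t, x, h => by cases h; exact ⟨[], t, rfl, rfl⟩
  | i + 1, a :: t, x, h => by
    obtain ⟨x', h1, rfl⟩ := Option.map_eq_some_iff.1 h
    obtain ⟨u, v, h2, h3⟩ := step_spec h1
    exact ⟨a :: u, v, congrArg _ h2, congrArg _ h3⟩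
  | 0, [], _, h => nomatch h
  | 0, [_], _, h => nomatch h
  | _ + 1, [], _, h => nomatch h

/-- the defects known before step `j` -/
def Kn (T : Tb) (c : ℕ → ℕ → Γ) (z : Γ) (j : ℕ) : Prop := ∀ r s, okp r s = true → T.O r s < j → c r s = z ^ T.E r s

theorem okp_lt {r s : ℕ} (h : okp r s = true) : s < 48 := by
  simp only [okp, Bool.and_eq_true, Nat.blt_eq] at h
  exact h.2.1

include hc

theorem run_spec {j : ℕ} (hk : T.Kn c z j) : ∀ {p w : List ℕ} {e : ℤ} {n : List ℕ} {x : List ℕ × ℤ × List ℕ},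
    T.run j p w e n = some x → (w.map y).prod * (z ^ e * (n.map fun k => c (k / 48) (k % 48)).prod) =
      (x.1.map y).prod * (z ^ x.2.1 * (x.2.2.map fun k => c (k / 48) (k % 48)).prod)
  | [], w, e, n, x, h => by cases h; rfl
  | i :: p, w, e, n, x, h => by
    obtain ⟨⟨r, s, w'⟩, h1, h2⟩ := Option.bind_eq_some_iff.1 h
    obtain ⟨u, v, rfl, h3⟩ := step_spec h1
    dsimp only at h2 h3
    cases ho : okp r s
    · rw [ho] at h2; exact nomatch h2
    rw [ho, cond_true] at h2
    have h4 := hc.1 r s ho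
    have h5 := hc.2 r s
    have e1 : ((u ++ s :: r :: v).map y).prod = (w'.map y).prod * c r s := by
      simp only [h3, List.map_append, List.prod_append, List.map_cons, List.prod_cons]
      rw [← mul_assoc (y s), h4, mul_assoc _ (c r s), ← h5]
      simp only [mul_assoc]
    rw [e1]
    cases hl : Nat.blt (T.O r s) j
    · rw [hl, cond_false] at h2
      have := okp_lt ho
      rw [← run_spec hk h2, List.map_cons, List.prod_cons, show Nat.add (Nat.mul 48 r) s = 48 * r + s from rfl,
        show (48 * r + s) / 48 = r by omega, show (48 * r + s) % 48 = s by omega, mul_assoc, ← mul_assoc (c r s), ← h5]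
      simp only [mul_assoc]
    · rw [hl, cond_true] at h2
      rw [← run_spec hk h2, hk r s ho (Nat.blt_eq.mp hl), show Int.add e (T.E r s) = T.E r s + e from add_comm _ _,
        zpow_add]
      simp only [mul_assoc]

theorem chk_spec {j : ℕ} {m : List ℕ} {a : ℤ} {d : ℕ × ℕ × ℕ} (hk : T.Kn c z j) (h : T.chk j m a d = true) :
    (m.map fun k => c (k / 48) (k % 48)).prod = z ^ a := by
  unfold chk at h
  cases h1 : T.run j (H14.dw d.2.1) (H14.dw d.1) 0 [] with
  | none => rw [h1] at h; exact nomatch h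
  | some x =>
    cases h2 : T.run j (H14.dw d.2.2) (H14.dw d.1) 0 [] with
    | none => rw [h1, h2] at h; exact nomatch h
    | some x' =>
      rw [h1, h2] at h
      simp only [Option.bind_some, Option.map_some, Option.getD_some, Bool.and_eq_true, beq_iff_eq,
        List.isPerm_iff] at h
      have := (run_spec hc hk h1).symm.trans (run_spec hc hk h2)
      rw [h.1, (h.2.1.map _).prod_eq' (List.pairwise_map.2 (List.pairwise_of_forall fun a b => hc.2 _ _ _)), h.2.2,
        show Int.add x.2.1 a = x.2.1 + a from rfl, zpow_add, List.map_append, List.prod_append, mul_assoc] at this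
      exact mul_right_cancel (mul_left_cancel (mul_left_cancel this))

theorem all_spec (ht : ∀ r s, okp r s = true → T.O r s = 0 ∨ fld 12 T.t (T.O r s) = 48 * r + s) :
    ∀ {L : List (ℕ × ℕ × ℕ)} {j : ℕ}, 0 < j → T.all L j = true → T.Kn c z j → T.Kn c z (j + L.length)
  | [], _, _, _, hk => hk
  | d :: L, j, h0, h, hk => by
    have h' : (T.chk j [fld 12 T.t j] (T.E (fld 12 T.t j / 48) (fld 12 T.t j % 48)) d && T.all L (j + 1)) = true := h
    rw [Bool.and_eq_true] at h'
    have := all_spec ht (Nat.succ_pos j) h'.2 fun r s ho hl => by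
      rcases Nat.lt_succ_iff_lt_or_eq.1 hl with hl | hl
      · exact hk r s ho hl
      · have e := (ht r s ho).resolve_left (by omega)
        have := chk_spec hc hk h'.1
        have h3 := okp_lt ho
        rwa [List.map_singleton, List.prod_singleton, ← hl, e, show (48 * r + s) / 48 = r by omega, show (48 * r + s) % 48 = s by omega] at this
    rwa [List.length_cons, ← add_assoc, add_right_comm]

end Tb
end L.F4
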