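import Cfsg.Agent.L.F4M
import Cfsg.Agent.L.Cov
import Cfsg.Agent.H24.StCert

/-! The Schur multiplier of the Chevalley group of type F4 over the field with two elements. -/

set_option autoImplicit false
set_option maxRecDepth 100000

namespace L.F4
open Cfsg Cfsg.Lie H12 H24
open scoped commutatorElement

universe u

theorem W_eq : ∀ r < 48, ∀ s < 48, r ≠ s → r + s ≠ 47 →
    ((fastF4.terms r s).filter fun c => c.2.1 % 2 == 1).map (·.1) = TT.W r s := by decide +kernel
theorem W_lt : ∀ r < 48, ∀ s < 48, ∀ k ∈ TT.W r s, k < 48 := by decide +kernel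
theorem ng_eq : ∀ r < 48, fastF4.ng r + r = 47 := by decide +kernel

/-- the relations -/
def RF {Γ : Type*} [Group Γ] (y : ℕ → Γ) : Prop := ∀ r s, Tb.okp r s = true → y s * y r = ((TT.rhs r s).map y).prod

/-- the relations of the double cover -/
def CR {P : Type*} [Group P] (gen : ℕ → P) : Prop := (∀ r < 48, gen r * gen 48 = gen 48 * gen r) ∧
  gen 48 * gen 48 = 1 ∧ gen 48 ≠ 1 ∧ ∀ r s, Tb.okp r s = true → gen s * gen r = ((TT.rhs r s).map gen).prod *
    (if (TT.W r s).length = 2 ∧ r ≠ s then gen 48 else 1)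

theorem rhs_ne {r s : ℕ} (h : r ≠ s) : TT.rhs r s = r :: s :: TT.W r s := by
  rw [Tb.rhs, show Nat.beq r s = false from Bool.eq_false_iff.2 fun e => h (Nat.eq_of_beq_eq_true e), cond_false]
theorem rhs_eq (r : ℕ) : TT.rhs r r = [] := by rw [Tb.rhs, Nat.beq_refl, cond_true]
theorem rhs_lt {r s : ℕ} (h : Tb.okp r s = true) : ∀ k ∈ TT.rhs r s, k < 48 := by
  obtain ⟨a, b, -⟩ := okp_spec.1 h
  by_cases e : r = s
  · rw [e, rhs_eq]; exact fun _ h => nomatch h
  · rw [rhs_ne e]
    exact List.forall_mem_cons.2 ⟨a, List.forall_mem_cons.2 ⟨b, W_lt r a s b⟩⟩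

theorem ng_iff (r s : Φ chevF4) : s ≠ ng r ↔ r.1 + s.1 ≠ 47 := by
  have := ng_eq r r.2
  rw [← tabF4_eq] at this
  have e : (ng r).1 + r.1 = 47 := this
  rw [Ne, Fin.ext_iff]; omega

variable {F : Type u} [Field F] (hF : ∀ t : F, t = 0 ∨ t = 1)
include hF

theorem two0 : (1 : F) + 1 = 0 := (hF _).resolve_right (by simp)

theorem wpr {Γ : Type*} [Group Γ] {x : Φ chevF4 → F → Γ} (h0 : ∀ r, x r 0 = 1) {y : ℕ → Γ} (hy : ∀ r, x r 1 = y r.1)
    {r s : Φ chevF4} (h1 : s ≠ r) (h2 : s ≠ ng r) : wprod x (cword r s 1 1) = ((TT.W r s).map y).prod := by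
  have e : ((TT.W r s).map y).prod = ((TT.W r s).map fun k => if h : k < chevF4.nroots then x ⟨k, h⟩ 1 else 1).prod :=
    congrArg _ (List.map_congr_left fun k hk => by
      rw [dif_pos (show k < chevF4.nroots from W_lt r r.2 s s.2 k hk), hy])
  rw [e, ← W_eq r r.2 s s.2 (fun h => h1 (Fin.ext h.symm)) ((ng_iff r s).1 h2), ← tabF4_eq, ← toΦ_commWord, wprod_toΦ]
  show wprod _ (((tab chevF4).terms r s).map _) = _
  generalize (tab chevF4).terms r s = l
  induction l with
  | nil => rfl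
  | cons c l ih =>
    have m1 : (-1 : F) = 1 := neg_eq_of_add_eq_zero_left (two0 hF)
    have e2 : (c.2.1 : F) = ((c.2.1 % 2 : ℤ) : F) := by
      conv_lhs => rw [← Int.emod_add_mul_ediv c.2.1 2]
      rw [Int.cast_add, Int.cast_mul, show ((2 : ℤ) : F) = 0 from (by norm_num : _ = (1 : F) + 1).trans (two0 hF)]
      simp
    rw [List.map_cons, wprod_cons, ih, m1, one_pow, one_pow, mul_one, mul_one, e2]
    rcases Int.emod_two_eq_zero_or_one c.2.1 with h | h
    · simp [h, h0]
    · simp [h]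

omit hF in
/-- the generators -/
noncomputable def gs (F : Type u) [Field F] (k : ℕ) : chevF4.SteinbergGroup F :=
  if h : k < chevF4.nroots then (stS chevF4 F).x ⟨k, h⟩ 1 else 1
omit hF in
theorem gs_eq (r : Φ chevF4) : (stS chevF4 F).x r 1 = gs F r.1 := by rw [gs, dif_pos r.2]

theorem relsG : RF (gs F) := fun r s h => by
  obtain ⟨a, b, c⟩ := okp_spec.1 h
  lift r to Φ chevF4 using a
  lift s to Φ chevF4 using b
  by_cases e : s = r
  · rw [e, rhs_eq, ← gs_eq, ← (stS chevF4 F).add, two0 hF, StSys.x_zero]; rfl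
  · rw [rhs_ne fun h => e (Fin.ext h.symm), List.map_cons, List.map_cons, List.prod_cons, List.prod_cons, ← mul_assoc,
      ← wpr hF (stS chevF4 F).x_zero gs_eq e ((ng_iff r s).2 c), ← gs_eq, ← gs_eq]
    exact (stS chevF4 F).comm e ((ng_iff r s).2 c) 1 1

theorem pres [Finite F] {Δ : Type*} [Group Δ] {y : ℕ → Δ} (h : RF y) :
    ∃ φ : chevF4.SteinbergGroup F →* Δ, ∀ k < 48, φ (gs F k) = y k := by
  classical
  let x : Φ chevF4 → F → Δ := fun r t => if t = 0 then 1 else y r.1
  have h0 : ∀ r, x r 0 = 1 := fun r => if_pos rfl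
  have h1 : ∀ r, x r 1 = y r.1 := fun r => if_neg one_ne_zero
  have hz : ∀ {r s : Φ chevF4}, s ≠ r → s ≠ ng r → ∀ t u : F, t = 0 ∨ u = 0 → wprod x (cword r s t u) = 1 :=
    fun a b t u e => List.prod_eq_one fun g hg => by
      simp only [cword, List.map_map, List.mem_map] at hg
      obtain ⟨c, hc, rfl⟩ := hg
      obtain ⟨c1, c2, -⟩ := cterms_spec a b hc
      refine if_pos ?_
      rcases e with rfl | rfl
      · simp [c1.ne']
      · simp [c2.ne']
  let S : StSys chevF4 F Δ := ⟨x, fun r t u => by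
    rcases hF t with rfl | rfl
    · rw [zero_add, h0, one_mul]
    rcases hF u with rfl | rfl
    · rw [add_zero, h0, mul_one]
    · have := r.2
      rw [two0 hF, h0, h1, h r r (okp_spec.2 ⟨r.2, r.2, by omega⟩), rhs_eq]; rfl, fun {r s} a b t u => by
    rcases hF t with rfl | rfl
    · rw [hz a b _ _ (Or.inl rfl), h0]; simp
    rcases hF u with rfl | rfl
    · rw [hz a b _ _ (Or.inr rfl), h0]; simp
    · rw [wpr hF h0 h1 a b, h1, h1, h r s (okp_spec.2 ⟨r.2, s.2, (ng_iff r s).1 b⟩), rhs_ne fun h => a (Fin.ext h.symm)]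
      simp [mul_assoc]⟩
  exact ⟨(r3_of_finite S).lift, fun k hk => by
    rw [← gs_eq ⟨k, hk⟩, StSys.R3.lift_x]; exact h1 _⟩

theorem ext_gs {Δ : Type*} [Group Δ] {f g : chevF4.SteinbergGroup F →* Δ} (h : ∀ k < 48, f (gs F k) = g (gs F k)) :
    f = g := hom_ext_T stS_T fun r t => by
  rcases hF t with rfl | rfl
  · rw [StSys.x_zero, map_one, map_one]
  · rw [gs_eq]; exact h _ r.2

omit hF in
theorem gauge_eq {Γ : Type*} [Group Γ] {y : ℕ → Γ} {k : ℕ} (hk : k < 48) :
    ((TT.rhs (ga.getD k 0) (gb.getD k 0)).map y).prod = y (ga.getD k 0) * y (gb.getD k 0) * y k ∧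
      Tb.okp (ga.getD k 0) (gb.getD k 0) = true := by
  obtain ⟨a, b, c, d, e⟩ := gauge_ok k hk
  exact ⟨by rw [rhs_ne c, e]; simp [mul_assoc], okp_spec.2 ⟨a, b, d⟩⟩

theorem upper [Finite F] {Γ : Type*} [Group Γ] (σ : Γ →* chevF4.SteinbergGroup F) (hσ : IsStemExtension σ) :
    Nat.card σ.ker ≤ 2 := by
  choose v hv using fun k => hσ.1 (gs F k)
  let y : ℕ → Γ := fun k => (v (ga.getD k 0) * v (gb.getD k 0))⁻¹ * (v (gb.getD k 0) * v (ga.getD k 0))
  have hy : ∀ k < 48, σ (y k) = gs F k := fun k hk => by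
    simp only [y, map_mul, map_inv, hv]
    rw [relsG hF _ _ (gauge_eq (y := gs F) hk).2, (gauge_eq hk).1, inv_mul_cancel_left]
  let c : ℕ → ℕ → Γ := fun r s => if Tb.okp r s = true then ((TT.rhs r s).map y).prod⁻¹ * (y s * y r) else 1
  have hk : ∀ r s, c r s ∈ σ.ker := fun r s => by
    simp only [c]
    split_ifs with h
    · obtain ⟨a, b, -⟩ := okp_spec.1 h
      rw [MonoidHom.mem_ker, map_mul, map_inv, map_mul, hy r a, hy s b, relsG hF r s h, map_list_prod, List.map_map, Function.comp_def,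
        List.map_congr_left fun k hk => hy k (rhs_lt h k hk), inv_mul_cancel]
    · exact one_mem _
  have hc : ∀ r s, Tb.okp r s = true → y s * y r = ((TT.rhs r s).map y).prod * c r s := fun r s h => by
    simp only [c, if_pos h, mul_inv_cancel_left]
  have cen : ∀ {a}, a ∈ σ.ker → ∀ g, g * a = a * g := fun h => Subgroup.mem_center_iff.1 (hσ.2.1 h)
  obtain ⟨h2, h3⟩ := defects ⟨hc, fun r s => cen (hk r s)⟩ fun k hk' => by
    obtain ⟨a, b, -⟩ := gauge_ok k hk'
    have := hc _ _ (gauge_eq (y := y) hk').2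
    rw [(gauge_eq hk').1] at this
    refine mul_left_cancel (this.symm.trans ?_)
    have e : ∀ j < 48, ∃ d ∈ σ.ker, y j = v j * d := fun j hj =>
      ⟨(v j)⁻¹ * y j, by rw [MonoidHom.mem_ker, map_mul, map_inv, hy j hj, hv, inv_mul_cancel], by group⟩
    obtain ⟨d, d1, d2⟩ := e _ a
    obtain ⟨f, f1, f2⟩ := e _ b
    have yk : y k = (v (ga.getD k 0) * v (gb.getD k 0))⁻¹ * (v (gb.getD k 0) * v (ga.getD k 0)) := rfl
    rw [d2, f2, yk]
    generalize v (ga.getD k 0) = p, v (gb.getD k 0) = q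
    calc q * f * (p * d) = q * (f * (p * d)) := mul_assoc _ _ _
      _ = q * p * (d * f) := by rw [← cen f1]; group
      _ = d * f * (q * p) := cen (mul_mem d1 f1) _
      _ = (d * f * (p * q)) * ((p * q)⁻¹ * (q * p)) := by group
      _ = _ := by rw [← cen (mul_mem d1 f1), mul_assoc p q, ← mul_assoc q d, cen d1 q]; group
  generalize hz : c 12 16 = z at h2 h3
  have zk : Subgroup.zpowers z ≤ σ.ker := Subgroup.zpowers_le.2 (hz ▸ hk 12 16)
  have : (Subgroup.zpowers z).Normal := ⟨fun a ha g => by rwa [cen (zk ha), mul_inv_cancel_right]⟩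
  obtain ⟨φ, hφ⟩ := pres hF (y := fun k => QuotientGroup.mk' (Subgroup.zpowers z) (y k)) fun r s h => by
    rw [← map_mul, hc r s h, map_mul, map_list_prod, List.map_map,
      (QuotientGroup.eq_one_iff (c r s)).2 (h3 r s h) |> fun e => show QuotientGroup.mk' _ (c r s) = 1 from e, mul_one]
    rfl
  have hs : IsStemExtension (QuotientGroup.lift _ σ zk) := by
    refine ⟨fun g => let ⟨a, ha⟩ := hσ.1 g; ⟨a, ha⟩, fun a ha => ?_, fun a ha => ?_⟩ <;>
      obtain ⟨a, rfl⟩ := QuotientGroup.mk'_surjective _ a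
    · refine Subgroup.mem_center_iff.2 fun g => ?_
      obtain ⟨g, rfl⟩ := QuotientGroup.mk'_surjective _ g
      rw [← map_mul, ← map_mul, cen ha]
    · have := Subgroup.mem_map_of_mem (QuotientGroup.mk' (Subgroup.zpowers z)) (hσ.2.2 ha)
      rw [commutator_def, Subgroup.map_commutator] at this
      exact Subgroup.commutator_mono le_top le_top this
  have hb := H21.stem_ker_eq_bot_of_section _ hs φ (ext_gs hF fun k hk => by
    rw [MonoidHom.comp_apply, hφ k hk]; exact hy k hk)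
  have e : σ.ker = Subgroup.zpowers z := le_antisymm (fun a ha => (QuotientGroup.eq_one_iff a).1 (by
    rw [← Subgroup.mem_bot, ← hb]; exact ha)) zk
  rw [e, Nat.card_zpowers]
  exact Nat.le_of_dvd two_pos (orderOf_dvd_of_pow_eq_one h2)

omit hF in
theorem ev_rev {Γ : Type*} [Group Γ] (y : ℕ → Γ) (l : List ℕ) : H14.ev y (l.map (2 * ·)).reverse = (l.map y).prod := by
  induction l with
  | nil => rfl
  | cons a l ih =>
    rw [List.map_cons, List.reverse_cons, H14.ev_append, ih, List.map_cons, List.prod_cons]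
    simp [H14.ev_cons, H14.letter]

omit hF in
theorem ev96 {Γ : Type*} [Group Γ] {y : ℕ → Γ} (h : y 48 = 1) :
    H15.ev (H14.letter y) [96] = H15.ev (H14.letter y) [96, 96] := by simp [H15.ev, H14.letter, h]

omit hF in
theorem gen_rel : CR gen := by
  refine ⟨fun r h => ?_, ?_, fun h => ?_, fun r s h => ?_⟩
  · simpa [H14.ev_cons, H14.letter] using rl_ok r h _ List.mem_cons_self
  · simpa [H14.ev_cons, H14.letter] using z2 _ List.mem_cons_self
  · exact H15.BP.ne_of_fld bp_ok hgen (u := [96]) (v := [96, 96]) 0 0 (by decide +kernel) (ev96 h)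
  · have := rl_ok r (okp_spec.1 h).1 _ (List.mem_cons_of_mem _ (List.mem_map_of_mem (f := pw r)
      (List.mem_filter.2 ⟨List.mem_range.2 (okp_spec.1 h).2.1, h⟩)))
    rw [pw, H14.ev_append, ev_rev] at this
    split_ifs at this ⊢ <;> simpa [H14.ev_cons, H14.letter] using this

theorem main' [Finite F] {P : Type*} [Group P] {gen : ℕ → P} (hg : CR gen) :
    HasCyclicSchurMultiplier (chevF4.SteinbergGroup F) 2 := by
  obtain ⟨g1, g2, g3, g4⟩ := hg
  let K := Subgroup.centralizer {gen 48}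
  let z : K := ⟨gen 48, Subgroup.mem_centralizer_singleton_iff.2 rfl⟩
  let Y : ℕ → K := fun k => if h : k < 48 then ⟨gen k, Subgroup.mem_centralizer_singleton_iff.2 (g1 k h)⟩ else 1
  have hY : ∀ k < 48, (Y k).1 = gen k := fun k h => by simp only [Y, dif_pos h]
  have cz : ∀ g, g * z = z * g := fun g => Subtype.ext (Subgroup.mem_centralizer_singleton_iff.1 g.2)
  have cN : ∀ a ∈ Subgroup.zpowers z, ∀ g, g * a = a * g := by
    rintro _ ⟨k, rfl⟩ g
    exact (Commute.zpow_right (cz g) k).eq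
  have : (Subgroup.zpowers z).Normal := ⟨fun a ha g => by rwa [cN a ha, mul_inv_cancel_right]⟩
  have hR : ∀ r s, Tb.okp r s = true → Y s * Y r = ((TT.rhs r s).map Y).prod *
      (if (TT.W r s).length = 2 ∧ r ≠ s then z else 1) := fun r s h => K.subtype_injective <| by
    rw [map_mul, map_mul, map_list_prod, List.map_map, List.map_congr_left (f := K.subtype ∘ Y) fun k hk => hY k (rhs_lt h k hk),
      apply_ite K.subtype, map_one]
    exact (congrArg₂ _ (hY s (okp_spec.1 h).2.1) (hY r (okp_spec.1 h).1)).trans (g4 r s h)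
  let q := QuotientGroup.mk' (Subgroup.zpowers z)
  have qz : q z = 1 := (QuotientGroup.eq_one_iff z).2 (Subgroup.mem_zpowers z)
  obtain ⟨φ, hφ⟩ := pres hF (y := fun k => q (Y k)) fun r s h => by
    rw [← map_mul, hR r s h, map_mul, map_list_prod, List.map_map, apply_ite q, qz, map_one, ite_self, mul_one]
    rfl
  let X := (φ.comp (MonoidHom.fst _ K)).eqLocus (q.comp (MonoidHom.snd _ K))
  let x : ℕ → X := fun k => if h : k < 48 then ⟨(gs F k, Y k), hφ k h⟩ else 1
  let ξ : X →* _ := (MonoidHom.fst _ K).comp X.subtype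
  let η : X →* _ := (MonoidHom.snd _ K).comp X.subtype
  have x1 : ∀ k < 48, ξ (x k) = gs F k := fun k h => by simp only [x, dif_pos h]; rfl
  have x2 : ∀ k < 48, η (x k) = Y k := fun k h => by simp only [x, dif_pos h]; rfl
  have hk : ∀ g ∈ ξ.ker, η g ∈ Subgroup.zpowers z := fun g hg => (QuotientGroup.eq_one_iff _).1 (by
    have h1 : φ (ξ g) = q (η g) := g.2
    rw [hg, map_one] at h1
    exact h1.symm)
  have ext : ∀ a b : X, ξ a = ξ b → η a = η b → a = b := fun a b h1 h2 => Subtype.ext (Prod.ext h1 h2)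
  have p1 : ∀ r s, Tb.okp r s = true → ξ (x s * x r) = ξ ((TT.rhs r s).map x).prod := fun r s h => by
    rw [map_mul, x1 s (okp_spec.1 h).2.1, x1 r (okp_spec.1 h).1, relsG hF r s h, map_list_prod, List.map_map, Function.comp_def,
      List.map_congr_left fun k hk => x1 k (rhs_lt h k hk)]
  have p2 : ∀ r s, Tb.okp r s = true → η (x s * x r) = η ((TT.rhs r s).map x).prod *
      (if (TT.W r s).length = 2 ∧ r ≠ s then z else 1) := fun r s h => by
    rw [map_mul, x2 s (okp_spec.1 h).2.1, x2 r (okp_spec.1 h).1, hR r s h, map_list_prod, List.map_map, Function.comp_def,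
      List.map_congr_left fun k hk => x2 k (rhs_lt h k hk)]
  have xc : ∀ k < 48, x k ∈ commutator X := fun k hk => by
    obtain ⟨a, b⟩ := gauge_eq (y := x) hk
    have := ext _ _ (p1 _ _ b) ((p2 _ _ b).trans (by rw [(gauge_ok k hk).2.2.2.2, if_neg (by simp), mul_one]))
    rw [a] at this
    rw [show x k = ⁅(x (gb.getD k 0))⁻¹, (x (ga.getD k 0))⁻¹⁆ by
      rw [commutatorElement_def, inv_inv, inv_inv, mul_assoc, this]; group]
    exact Subgroup.commutator_mem_commutator trivial trivial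
  have oz : orderOf z = 2 := orderOf_eq_prime (Subtype.ext ((pow_two _).trans g2)) fun h => g3 (congrArg Subtype.val h)
  have c2 : Nat.card (Multiplicative (ZMod 2)) = 2 := by simp
  let χ := mulEquivOfPrimeCardEq ((Nat.card_zpowers z).trans oz) c2
  let _ : CommGroup (Subgroup.zpowers z) := IsCyclic.commGroup
  refine schur_aux ξ (fun g => ?_) (fun a ha => Subgroup.mem_center_iff.2 fun g => ext _ _ ?_ ?_) η
    (Subgroup.zpowers z).subtype Subtype.val_injective (fun g hg => ⟨⟨_, hk g hg⟩, rfl⟩) χ.toMonoidHom (fun H hH a => ?_)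
    fun Γ _ _ σ hσ => (upper hF σ hσ).trans c2.ge
  · obtain ⟨m, hm⟩ := QuotientGroup.mk'_surjective _ (φ g)
    exact ⟨⟨(g, m), hm.symm⟩, rfl⟩
  · rw [map_mul, map_mul, ha, one_mul, mul_one]
  · rw [map_mul, map_mul, cN _ (hk a ha)]
  · have ok : Tb.okp 12 16 = true := by decide
    have := hH (((TT.rhs 12 16).map x).prod⁻¹ * (x 16 * x 12))
      (by rw [MonoidHom.mem_ker, map_mul, map_inv, p1 _ _ ok, inv_mul_cancel])
      (mul_mem (inv_mem (list_prod_mem fun g hg => by
        obtain ⟨k, h, rfl⟩ := List.mem_map.1 hg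
        exact xc k (rhs_lt ok k h))) (mul_mem (xc _ (by decide)) (xc _ (by decide)))) ⟨z, Subgroup.mem_zpowers z⟩
      (by rw [map_mul, map_inv, p2 _ _ ok, if_pos (by decide +kernel), inv_mul_cancel_left]; rfl)
    have : Fact (Nat.card (Multiplicative (ZMod 2))).Prime := ⟨by rw [c2]; exact Nat.prime_two⟩
    rcases H.eq_bot_or_eq_top_of_prime_card with rfl | rfl
    · exact absurd (congrArg (·.1.1) (χ.map_eq_one_iff.1 this)) g3
    · trivial

theorem main [Finite F] : HasCyclicSchurMultiplier (chevF4.group F) 2 := by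
  have h : (toGroup (cov_st (D := chevF4) (F := F)) stS_T).ker = ⊥ := by
    rw [toGroup_ker, cov_st.ker_eq_center stS_T, center_st_eq_bot (smithF4.ker_eq_bot (by decide) _)]
  exact H21.schur_congr_left (main' hF gen_rel) (MulEquiv.ofBijective _ ⟨(MonoidHom.ker_eq_bot_iff _).1 h, toGroup_surj _ _⟩)

end L.F4
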