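import Cfsg.Agent.H11.Gm0

/-! Minimal degree of `G₂(q)` in characteristic three (`p3`). -/
set_option autoImplicit false
set_option linter.unusedSectionVars false
namespace L.Gm3
open H24 Module Matrix H11.Gm

variable {F G M : Type*} [Field F] [Fintype F] [Group G] [AddCommGroup M] [Module ℂ M] [FiniteDimensional ℂ M]
variable {S : Sy F G} {ρ : G →* End ℂ M} {ψ : AddChar F ℂ}

theorem x0 (r : ℕ) : S.x r 0 = 1 := by simpa using S.add r 0 0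

theorem J_iff {r s : ℕ} {m ε : F} {g : G} (e0 : ε ≠ 0) (hg : ∀ t, g * S.x r t * g⁻¹ = S.x s (ε * t)) {v : M} :
    v ∈ J S ρ ψ r m ↔ ρ g v ∈ J S ρ ψ s (m / ε) := ⟨J_conj e0 hg, fun h t => inj (ρ := ρ) g (by
  change ρ g (ρ _ _) = _
  rw [← app, mul_inv_eq_iff_eq_mul.1 (hg t), app, mem_J.1 h, map_smul]
  congr 2; field_simp)⟩

theorem J_iff0 {r s : ℕ} {ε : F} {g : G} (e0 : ε ≠ 0) (hg : ∀ t, g * S.x r t * g⁻¹ = S.x s (ε * t)) {v : M} :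
    v ∈ J S ρ ψ r 0 ↔ ρ g v ∈ J S ρ ψ s 0 := by simpa using J_iff (m := 0) (ρ := ρ) (ψ := ψ) e0 hg (v := v)

theorem fr_eq (g : G) {U U' : Submodule ℂ M} (h : ∀ v, v ∈ U ↔ ρ g v ∈ U') : finrank ℂ U = finrank ℂ U' :=
  le_antisymm (fr_le g fun v hv => (h v).1 hv) (fr_le (ρ := ρ) g⁻¹ fun v hv => (h _).2 (by simpa [← app] using hv))

theorem cj {r s : ℕ} (p : (r, s) ∈ [(6, 8), (6, 9), (6, 11), (7, 10), (7, 11), (8, 10), (8, 11), (9, 10), (9, 11), (10, 11)])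
    {m : F} {v : M} (t : F) (hv : v ∈ J S ρ ψ s m) : ρ (S.x r t) v ∈ J S ρ ψ s m :=
  J_comm (fun u => (S.cm _ p t u).symm) hv
theorem cj' {r s : ℕ} (p : (s, r) ∈ [(6, 8), (6, 9), (6, 11), (7, 10), (7, 11), (8, 10), (8, 11), (9, 10), (9, 11), (10, 11)])
    {m : F} {v : M} (t : F) (hv : v ∈ J S ρ ψ s m) : ρ (S.x r t) v ∈ J S ρ ψ s m :=
  J_comm (fun u => S.cm _ p u t) hv

theorem a6A {m m' : F} {v : M} (t : F) (h : v ∈ J S ρ ψ 10 m) (h' : v ∈ J S ρ ψ 11 m') :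
    ρ (S.x 6 t) v ∈ J S ρ ψ 10 (m - t * m') := fun u => by
  change ρ _ _ = _
  rw [← app, S.c6A, app, app, mem_J.1 h', map_smul, mem_J.1 h, map_smul, map_smul, smul_smul, ← AddChar.map_add_eq_mul]
  congr 2; ring

theorem a67 {a0 a1 m m' : F} {v : M} (t u : F) (h7 : v ∈ J S ρ ψ 7 a0) (h8 : v ∈ J S ρ ψ 8 a1) (h9 : v ∈ J S ρ ψ 9 0)
    (h : v ∈ J S ρ ψ 10 m) (h' : v ∈ J S ρ ψ 11 m') : ρ (S.x 7 u) (ρ (S.x 6 t) v) =
      ψ (u * (a0 - t * a1) + u ^ 3 * (t * m - 2 * t ^ 2 * m')) • ρ (S.x 6 t) v := by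
  rw [← app, S.c67]
  simp only [app, mem_J.1 h', map_smul, mem_J.1 h, mem_J0.1 h9, mem_J.1 h8, mem_J.1 h7, smul_smul,
    ← AddChar.map_add_eq_mul]
  congr 2; ring

theorem a76 {b a1 m : F} {v : M} (t : F) (h6 : v ∈ J S ρ ψ 6 b) (h8 : v ∈ J S ρ ψ 8 a1) (h9 : v ∈ J S ρ ψ 9 0)
    (h : v ∈ J S ρ ψ 10 m) (h' : v ∈ J S ρ ψ 11 0) : ρ (S.x 7 t) v ∈ J S ρ ψ 6 (b + (t * a1 - t ^ 3 * m)) := fun u => by
  change ρ _ _ = _
  rw [← app, S.c76]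
  simp only [app, mem_J0.1 h', map_smul, mem_J.1 h, mem_J0.1 h9, mem_J.1 h8, mem_J.1 h6, smul_smul,
    ← AddChar.map_add_eq_mul]
  congr 2; ring

section
variable (h3 : (3 : F) = 0)
include h3

theorem a78 {a1 a2 : F} {v : M} (t : F) (h8 : v ∈ J S ρ ψ 8 a1) (h9 : v ∈ J S ρ ψ 9 a2) :
    ρ (S.x 7 t) v ∈ J S ρ ψ 8 (a1 + 2 * t * a2) := fun u => by
  change ρ _ _ = _
  rw [← app, S.c78]
  simp only [h3, zero_mul, neg_zero, x0, mul_one, app, mem_J.1 h9, map_smul, mem_J.1 h8, smul_smul,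
    ← AddChar.map_add_eq_mul]
  congr 2; ring
theorem a79 {a : F} {v : M} (t : F) (h9 : v ∈ J S ρ ψ 9 a) : ρ (S.x 7 t) v ∈ J S ρ ψ 9 a :=
  J_comm (fun u => by have := S.c79 t u; simpa [h3, x0, commute_iff_eq] using this) h9
theorem a89 {a : F} {v : M} (t : F) (h9 : v ∈ J S ρ ψ 9 a) : ρ (S.x 8 t) v ∈ J S ρ ψ 9 a :=
  J_comm (fun u => by have := S.c89 t u; simpa [h3, x0, commute_iff_eq] using this) h9
theorem cube (y : F) : ∃ t : F, t ^ 3 = y := (Finite.injective_iff_surjective (f := fun t : F => t ^ 3)).1 (fun a b e => by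
  have : (a - b) ^ 3 = 0 := by
    simp only at e
    linear_combination e + (a * b ^ 2 - a ^ 2 * b) * h3
  exact sub_eq_zero.1 (pow_eq_zero_iff (by norm_num) |>.1 this)) y
end

theorem tor {e r : ℕ} (he : e ∈ [6, 7, 8, 9, 10, 11]) (hr : r ∈ [6, 7, 8, 9, 10, 11]) (z : Fˣ) {k : ℕ} (hk : pr e r = k)
    {m : F} {v : M} (hv : v ∈ J S ρ ψ r m) : ρ (S.h e z) v ∈ J S ρ ψ r (m / z ^ k) := by
  have := J_conj (Units.ne_zero _) (S.tor e he r hr z) hv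
  rwa [hk, zpow_natCast, Units.val_pow_eq_pow_val] at this
theorem tor0 {e r : ℕ} (he : e ∈ [6, 7, 8, 9, 10, 11]) (hr : r ∈ [6, 7, 8, 9, 10, 11]) (z : Fˣ)
    {v : M} (hv : v ∈ J S ρ ψ r 0) : ρ (S.h e z) v ∈ J S ρ ψ r 0 := by
  simpa using J_conj (Units.ne_zero _) (S.tor e he r hr z) hv

theorem spl {k : ℕ} (hk : Fintype.card F = k + 1) (f : F → ℕ) {c : ℕ} (h : ∀ a ≠ 0, f a = c) : ∑ a, f a = f 0 + k * c := by
  classical
  rw [← Finset.add_sum_erase _ _ (Finset.mem_univ 0), Finset.sum_congr rfl fun a ha => h a (Finset.ne_of_mem_erase ha)]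
  simp [Finset.card_erase_of_mem, hk]
theorem cst (f : F → ℕ) (h : ∀ a b, f a ≤ f b) (a : F) : ∑ b, f b = Fintype.card F * f a := by
  rw [Finset.sum_congr rfl fun b _ => le_antisymm (h b a) (h a b)]; simp

theorem exc (h : 9 ≤ Fintype.card F) : ∃ t : F, t ≠ 0 ∧ t ≠ 1 ∧ t ≠ -1 := by
  classical
  by_contra k
  push Not at k
  have : (Finset.univ : Finset F) ⊆ {0, 1, -1} := fun t _ => by
    by_cases a : t = 0
    · simp [a]
    by_cases b : t = 1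
    · simp [b]
    simp [k t a b]
  have := (Finset.card_le_card this).trans Finset.card_le_three
  rw [Finset.card_univ] at this
  omega

theorem sqs {k : ℕ} (hk : Fintype.card F = k + 1) (f : F → ℕ) {a : F} (a0 : a ≠ 0) (h : ∀ z : Fˣ, 3 ≤ f (a / z ^ 2)) :
    3 * k ≤ 2 * ∑ b, f b := by
  classical
  have h1 : (Finset.univ : Finset Fˣ).card ≤ 2 * (Finset.univ.image fun z : Fˣ => a / (z : F) ^ 2).card :=
    Finset.card_le_mul_card_image _ 2 fun b hb => by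
      obtain ⟨z, -, rfl⟩ := Finset.mem_image.1 hb
      refine (Finset.card_le_card fun y hy => ?_).trans (Finset.card_le_two (a := z) (b := -z))
      have := (Finset.mem_filter.1 hy).2
      rw [div_eq_div_iff (pow_ne_zero _ y.ne_zero) (pow_ne_zero _ z.ne_zero), mul_right_inj' a0, eq_comm,
        sq_eq_sq_iff_eq_or_eq_neg] at this
      simpa [Units.ext_iff] using this
  have h2 : (Finset.univ.image fun z : Fˣ => a / (z : F) ^ 2).card * 3 ≤ ∑ b, f b :=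
    (Finset.card_nsmul_le_sum _ f 3 fun b hb => by
      obtain ⟨z, -, rfl⟩ := Finset.mem_image.1 hb; exact h z).trans (Finset.sum_le_sum_of_subset (Finset.subset_univ _))
  rw [Finset.card_univ, Fintype.card_units, hk] at h1
  simp only [add_tsub_cancel_right] at h1
  omega

variable (S ρ ψ) in
noncomputable abbrev T (a2 m2 : F) : Submodule ℂ M := J S ρ ψ 11 m2 ⊓ J S ρ ψ 9 a2
variable (S ρ ψ) in
noncomputable abbrev A (a1 a2 m1 m2 : F) : Submodule ℂ M := T S ρ ψ a2 m2 ⊓ J S ρ ψ 8 a1 ⊓ J S ρ ψ 10 m1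
variable (S ρ ψ) in
noncomputable def N (a1 a2 m1 m2 : F) : ℕ := finrank ℂ (A S ρ ψ a1 a2 m1 m2)

theorem p3.{u, v, w} : P3.{u, v, w} := by
  intro F G M _ _ _ _ _ _ S ρ h3 h9 nt _
  classical
  obtain ⟨ψ, hψ⟩ : ∃ ψ : AddChar F ℂ, ψ ≠ 1 := by
    obtain ⟨ψ, h⟩ := AddChar.exists_apply_ne_zero.2 (one_ne_zero : (1 : F) ≠ 0)
    exact ⟨ψ, fun e => h (by rw [e]; rfl)⟩
  obtain ⟨k, hk⟩ : ∃ k, Fintype.card F = k + 1 := ⟨Fintype.card F - 1, by omega⟩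
  have two : (2 : F) = -1 := by linear_combination h3
  have t0 : (2 : F) ≠ 0 := by rw [two]; simp
  obtain ⟨ε1, z1, w678⟩ := S.wy (6, 7, 8) (by decide)
  obtain ⟨ε2, z2, w687⟩ := S.wy (6, 8, 7) (by decide)
  obtain ⟨ε3, z3, w699⟩ := S.wy (6, 9, 9) (by decide)
  obtain ⟨ε4, z4, w6AB⟩ := S.wy (6, 10, 11) (by decide)
  obtain ⟨ε5, z5, w6BA⟩ := S.wy (6, 11, 10) (by decide)
  obtain ⟨ε6, z6, w76A⟩ := S.wy (7, 6, 10) (by decide)
  obtain ⟨ε7, z7, w7A6⟩ := S.wy (7, 10, 6) (by decide)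
  obtain ⟨ε8, z8, w789⟩ := S.wy (7, 8, 9) (by decide)
  obtain ⟨ε9, z9, w798⟩ := S.wy (7, 9, 8) (by decide)
  obtain ⟨εA, zA, w7BB⟩ := S.wy (7, 11, 11) (by decide)
  simp only at w678 w687 w699 w6AB w6BA w76A w7A6 w789 w798 w7BB
  let B : F → F → F → ℕ := fun a1 a2 m2 => finrank ℂ ↥(T S ρ ψ a2 m2 ⊓ J S ρ ψ 8 a1)
  let C : F → F → F → ℕ := fun a2 m1 m2 => finrank ℂ ↥(T S ρ ψ a2 m2 ⊓ J S ρ ψ 10 m1)
  let N := N S ρ ψ
  have sB : ∀ a1 a2 m2, ∑ m1, N a1 a2 m1 m2 = B a1 a2 m2 := fun a1 a2 m2 => sum_fr hψ fun u v hv =>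
    ⟨⟨cj (by decide) u hv.1.1, cj' (by decide) u hv.1.2⟩, cj' (by decide) u hv.2⟩
  have sC : ∀ a2 m1 m2, ∑ a1, N a1 a2 m1 m2 = C a2 m1 m2 := fun a2 m1 m2 => by
    refine Eq.trans (Finset.sum_congr rfl fun a1 _ => ?_) (sum_fr (r := 8) hψ fun u v hv =>
      ⟨⟨cj (by decide) u hv.1.1, a89 h3 u hv.1.2⟩, cj (by decide) u hv.2⟩)
    exact congrArg (fun p : Submodule ℂ M => finrank ℂ p) (inf_right_comm _ _ _)
  have sTB : ∀ a2 m2, ∑ a1, B a1 a2 m2 = finrank ℂ (T S ρ ψ a2 m2) := fun a2 m2 => sum_fr hψ fun u v hv =>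
    ⟨cj (by decide) u hv.1, a89 h3 u hv.2⟩
  have sTC : ∀ a2 m2, ∑ m1, C a2 m1 m2 = finrank ℂ (T S ρ ψ a2 m2) := fun a2 m2 => sum_fr hψ fun u v hv =>
    ⟨cj (by decide) u hv.1, cj' (by decide) u hv.2⟩
  have sT : ∀ m2, ∑ a2, finrank ℂ (T S ρ ψ a2 m2) = finrank ℂ (J S ρ ψ 11 m2) := fun m2 => sum_fr hψ fun u v hv =>
    cj (by decide) u hv
  have sM : ∑ m2, finrank ℂ (J S ρ ψ 11 m2) = finrank ℂ M := by
    have := sum_fr (S := S) (ρ := ρ) hψ (U := ⊤) (r := 11) fun _ _ _ => trivial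
    rwa [finrank_top, Finset.sum_congr rfl fun m _ => congrArg (fun p : Submodule ℂ M => finrank ℂ p) (top_inf_eq _)]
      at this
  have i6 : ∀ a1 a2 m1 m2 t, ∀ v ∈ A S ρ ψ a1 a2 m1 m2, ρ (S.x 6 t) v ∈ A S ρ ψ a1 a2 (m1 - t * m2) m2 :=
    fun a1 a2 m1 m2 t v hv => ⟨⟨⟨cj (by decide) t hv.1.1.1, cj (by decide) t hv.1.1.2⟩, cj (by decide) t hv.1.2⟩,
      a6A t hv.2 hv.1.1.1⟩
  have i7 : ∀ a1 a2 m1 m2 t, ∀ v ∈ A S ρ ψ a1 a2 m1 m2, ρ (S.x 7 t) v ∈ A S ρ ψ (a1 + 2 * t * a2) a2 m1 m2 :=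
    fun a1 a2 m1 m2 t v hv => ⟨⟨⟨cj (by decide) t hv.1.1.1, a79 h3 t hv.1.1.2⟩, a78 h3 t hv.1.2 hv.1.1.2⟩,
      cj (by decide) t hv.2⟩
  have i6' : ∀ a1 m1 t, ∀ v ∈ A S ρ ψ a1 0 m1 0, ρ (S.x 6 t) v ∈ A S ρ ψ a1 0 m1 0 := fun a1 m1 t v hv => by
    simpa only [mul_zero, sub_zero] using i6 _ _ _ _ t v hv
  have i7' : ∀ a1 m1 t, ∀ v ∈ A S ρ ψ a1 0 m1 0, ρ (S.x 7 t) v ∈ A S ρ ψ a1 0 m1 0 := fun a1 m1 t v hv => by
    simpa only [mul_zero, add_zero] using i7 _ _ _ _ t v hv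
  have m6 : ∀ a1 a2 m2, m2 ≠ 0 → ∀ m1 m1', N a1 a2 m1 m2 ≤ N a1 a2 m1' m2 := fun a1 a2 m2 h m1 m1' => by
    have := fr_le _ (i6 a1 a2 m1 m2 ((m1 - m1') / m2))
    rwa [div_mul_cancel₀ _ h, sub_sub_cancel] at this
  have m7 : ∀ a2 m1 m2, a2 ≠ 0 → ∀ a1 a1', N a1 a2 m1 m2 ≤ N a1' a2 m1 m2 := fun a2 m1 m2 h a1 a1' => by
    have := fr_le _ (i7 a1 a2 m1 m2 ((a1' - a1) / (2 * a2)))
    rwa [show a1 + 2 * ((a1' - a1) / (2 * a2)) * a2 = a1' by field_simp; ring] at this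
  have t6 : ∀ a2 m m', m ≠ 0 → m' ≠ 0 → N 0 a2 0 m ≤ N 0 a2 0 m' := fun a2 m m' h h' =>
    fr_le (S.h 6 (Units.mk0 _ (div_ne_zero h h'))) fun v hv => ⟨⟨⟨by
      simpa [div_div_cancel₀ h] using tor (e := 6) (k := 1) (by decide) (by decide) (Units.mk0 _ (div_ne_zero h h'))
        (by decide) hv.1.1.1, by simpa using tor (e := 6) (k := 0) (by decide) (by decide) _ (by decide) hv.1.1.2⟩,
      tor0 (by decide) (by decide) _ hv.1.2⟩, tor0 (by decide) (by decide) _ hv.2⟩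
  have t7 : ∀ m a a', a ≠ 0 → a' ≠ 0 → N 0 a 0 m ≤ N 0 a' 0 m := fun m a a' h h' =>
    fr_le (S.h 7 (Units.mk0 _ (div_ne_zero h h'))) fun v hv => ⟨⟨⟨by
      simpa using tor (e := 7) (k := 0) (by decide) (by decide) _ (by decide) hv.1.1.1, by
      simpa [div_div_cancel₀ h] using tor (e := 7) (k := 1) (by decide) (by decide) (Units.mk0 _ (div_ne_zero h h'))
        (by decide) hv.1.1.2⟩, tor0 (by decide) (by decide) _ hv.1.2⟩, tor0 (by decide) (by decide) _ hv.2⟩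
  have t8 : ∀ a m (z : Fˣ), N a 0 m 0 ≤ N (a / z ^ 2) 0 m 0 := fun a m z =>
    fr_le (S.h 8 z) fun v hv => ⟨⟨⟨tor0 (by decide) (by decide) _ hv.1.1.1, tor0 (by decide) (by decide) _ hv.1.1.2⟩,
      tor (by decide) (by decide) _ (by decide) hv.1.2⟩, by
      simpa using tor (e := 8) (k := 0) (by decide) (by decide) _ (by decide) hv.2⟩
  have w7 : ∀ a1 m2, B a1 0 m2 = B 0 (a1 / ε8) (m2 / εA) := fun a1 m2 => fr_eq (ρ := ρ) (S.n 7) fun v => by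
    simp only [Submodule.mem_inf, ← J_iff zA w7BB, ← J_iff z8 w789, ← J_iff0 z9 w798]; tauto
  have w6 : ∀ a2 m1, C a2 m1 0 = C (a2 / ε3) 0 (m1 / ε4) := fun a2 m1 => fr_eq (ρ := ρ) (S.n 6) fun v => by
    simp only [Submodule.mem_inf, ← J_iff z3 w699, ← J_iff z4 w6AB, ← J_iff0 z5 w6BA]; tauto
  set m := N 0 1 0 1 with hm
  set e1 := N 0 0 0 1 with he1
  set e2 := N 0 1 0 0 with he2
  have n6 : ∀ a m, m ≠ 0 → N 0 a 0 m = N 0 a 0 1 := fun a m h =>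
    le_antisymm (t6 _ _ _ h one_ne_zero) (t6 _ _ _ one_ne_zero h)
  have n7 : ∀ a m, a ≠ 0 → N 0 a 0 m = N 0 1 0 m := fun a m h =>
    le_antisymm (t7 _ _ _ h one_ne_zero) (t7 _ _ _ one_ne_zero h)
  have B1 : ∀ a1 a2 m2, m2 ≠ 0 → B a1 a2 m2 = (k + 1) * N a1 a2 0 m2 := fun a1 a2 m2 h => by
    rw [← sB, cst _ (m6 a1 a2 m2 h) 0, hk]
  have C1 : ∀ a2 m1 m2, a2 ≠ 0 → C a2 m1 m2 = (k + 1) * N 0 a2 m1 m2 := fun a2 m1 m2 h => by
    rw [← sC, cst _ (m7 a2 m1 m2 h) 0, hk]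
  have kp : 0 < k + 1 := by omega
  have Na : ∀ a1 m2, a1 ≠ 0 → m2 ≠ 0 → N a1 0 0 m2 = m := fun a1 m2 h h' => Nat.eq_of_mul_eq_mul_left kp (by
    rw [← B1 _ _ _ h', w7, B1 _ _ _ (div_ne_zero h' zA), n6 _ _ (div_ne_zero h' zA), n7 _ _ (div_ne_zero h z8)])
  have Nb : ∀ a2 m1, a2 ≠ 0 → m1 ≠ 0 → N 0 a2 m1 0 = m := fun a2 m1 h h' => Nat.eq_of_mul_eq_mul_left kp (by
    rw [← C1 _ _ _ h, w6, C1 _ _ _ (div_ne_zero h z3), n6 _ _ (div_ne_zero h' z4), n7 _ _ (div_ne_zero h z3)])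
  have T11 : ∀ a2 m2, a2 ≠ 0 → m2 ≠ 0 → finrank ℂ (T S ρ ψ a2 m2) = (k + 1) * ((k + 1) * m) := fun a2 m2 h h' => by
    rw [← sTB, Finset.sum_congr rfl fun a1 _ => (B1 a1 a2 m2 h').trans (congrArg _ ((le_antisymm (m7 _ _ _ h a1 0)
      (m7 _ _ _ h 0 a1)).trans ((n6 _ _ h').trans (n7 _ _ h))))]
    simp [hk, hm]
  have T01 : ∀ m2, m2 ≠ 0 → finrank ℂ (T S ρ ψ 0 m2) = (k + 1) * e1 + k * ((k + 1) * m) := fun m2 h => by
    rw [← sTB, spl hk _ fun a ha => (B1 a 0 m2 h).trans (congrArg _ (Na a m2 ha h)), B1 _ _ _ h, n6 _ _ h]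
  have T10 : ∀ a2, a2 ≠ 0 → finrank ℂ (T S ρ ψ a2 0) = (k + 1) * e2 + k * ((k + 1) * m) := fun a2 h => by
    rw [← sTC, spl hk _ fun a ha => (C1 a2 a 0 h).trans (congrArg _ (Nb a2 a h ha)), C1 _ _ _ h, n7 _ _ h]
  have C0 : ∀ m1, m1 ≠ 0 → C 0 m1 0 = e1 + k * m := fun m1 h => by
    rw [w6, zero_div, ← sC, spl hk _ fun a ha => Na a _ ha (div_ne_zero h z4), n6 _ _ (div_ne_zero h z4)]
  have B0 : ∀ a1, a1 ≠ 0 → B a1 0 0 = e2 + k * m := fun a1 h => by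
    rw [w7, zero_div, ← sB, spl hk _ fun a ha => Nb _ a (div_ne_zero h z8) ha, n7 _ _ (div_ne_zero h z8)]
  have J1 : ∀ m2, m2 ≠ 0 → finrank ℂ (J S ρ ψ 11 m2) =
      (k + 1) * e1 + k * ((k + 1) * m) + k * ((k + 1) * ((k + 1) * m)) := fun m2 h => by
    rw [← sT, spl hk _ fun a ha => T11 a m2 ha h, T01 _ h]
  have tot : finrank ℂ M = finrank ℂ (J S ρ ψ 11 0) +
      k * ((k + 1) * e1 + k * ((k + 1) * m) + k * ((k + 1) * ((k + 1) * m))) := by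
    rw [← sM, spl hk _ J1]
  have J0 : finrank ℂ (J S ρ ψ 11 0) = C 0 0 0 + k * (e1 + k * m) + k * ((k + 1) * e2 + k * ((k + 1) * m)) := by
    rw [← sT, spl hk _ T10, ← sTC, spl hk _ C0]
  obtain ⟨μ, μ0, μ1, μ2⟩ := exc h9
  have k8 : 8 ≤ k := by omega
  rw [hk]
  rcases Nat.lt_trichotomy m 1 with m0 | m1 | m2
  · exfalso
    obtain m0 : m = 0 := by omega
    have tr : ∀ m2, m2 ≠ 0 → ∀ v ∈ J S ρ ψ 11 m2, v ∈ J S ρ ψ 8 0 := fun m2 h v hv => by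
      have := Submodule.eq_of_le_of_finrank_eq (S₁ := T S ρ ψ 0 m2 ⊓ J S ρ ψ 8 0) (S₂ := J S ρ ψ 11 m2)
        (inf_le_left.trans inf_le_left) (by
          rw [J1 _ h, m0]; exact (B1 0 0 m2 h).trans (by rw [n6 _ _ h]; simp [he1]))
      rw [← this] at hv
      exact hv.2
    have tr' : ∀ m1, m1 ≠ 0 → ∀ v ∈ J S ρ ψ 10 m1, v ∈ J S ρ ψ 7 0 := fun m1 h v hv =>
      (J_iff0 z1 w678).2 (tr _ (div_ne_zero h z4) _ ((J_iff z4 w6AB).1 hv))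
    have e0 : e1 ≠ 0 := fun e => nt (LinearMap.ext fun v => by
      have : J S ρ ψ 11 0 = ⊤ := Submodule.eq_top_of_finrank_eq (by rw [tot, e, m0]; simp)
      exact mem_J0.1 (this ▸ Submodule.mem_top : v ∈ J S ρ ψ 11 0) 1)
    obtain ⟨v, hv, v0⟩ := (Submodule.ne_bot_iff (A S ρ ψ 0 0 μ 1)).1 fun e => e0 (by
      have : N 0 0 μ 1 = 0 := Submodule.finrank_eq_zero.2 e
      have := m6 0 0 1 one_ne_zero 0 μ
      omega)
    have h7 := tr' _ (sub_ne_zero.2 μ1) _ (by simpa using a6A 1 hv.2 hv.1.1.1)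
    have x0' : ρ (S.x 6 1) v ≠ 0 := fun e => v0 (inj (ρ := ρ) _ (by rw [e, map_zero]))
    refine μ2 ?_
    have := eq_zero_of_forall_addChar_mul hψ (a := μ - 2) fun c => by
      obtain ⟨u, rfl⟩ := cube h3 c
      have e := a67 1 u (tr' _ μ0 v hv.2) hv.1.2 hv.1.1.2 hv.2 hv.1.1.1
      rw [mem_J0.1 h7] at e
      have e' := smul_left_injective ℂ x0' ((one_smul ℂ _).trans e)
      rw [e']
      congr 1; ring
    rw [← two]; exact sub_eq_zero.1 this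
  · have s6 : ∀ a m1, ∑ b, finrank ℂ ↥(A S ρ ψ a 0 m1 0 ⊓ J S ρ ψ 6 b) = N a 0 m1 0 := fun a m1 =>
      sum_fr hψ fun u => i6' a m1 u
    have s7 : ∀ a m1, ∑ b, finrank ℂ ↥(A S ρ ψ a 0 m1 0 ⊓ J S ρ ψ 7 b) = N a 0 m1 0 := fun a m1 =>
      sum_fr hψ fun u => i7' a m1 u
    have v6 : ∀ a m1 b t, finrank ℂ ↥(A S ρ ψ a 0 m1 0 ⊓ J S ρ ψ 6 b) ≤
        finrank ℂ ↥(A S ρ ψ a 0 m1 0 ⊓ J S ρ ψ 6 (b + (t * a - t ^ 3 * m1))) := fun a m1 b t =>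
      fr_le (S.x 7 t) fun v hv => ⟨i7' _ _ t v hv.1, a76 t hv.2 hv.1.1.2 hv.1.1.1.2 hv.1.2 hv.1.1.1.1⟩
    have j67 : ∀ a b t, ∀ v ∈ A S ρ ψ a 0 0 0 ⊓ J S ρ ψ 7 b, ρ (S.x 6 t) v ∈ A S ρ ψ a 0 0 0 ⊓ J S ρ ψ 7 (b - t * a) :=
      fun a b t v hv => ⟨i6' _ _ t v hv.1, fun u => by
        simpa using a67 t u hv.2 hv.1.1.2 hv.1.1.1.2 hv.1.2 hv.1.1.1.1⟩
    rw [m1] at C0 B0 tot J0
    by_cases f0 : ∀ a ≠ 0, ∀ b ≠ 0, N a 0 b 0 = 0
    swap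
    · push Not at f0
      obtain ⟨a, a0, b, b0, f0⟩ := f0
      have f3 : 3 ≤ N a 0 b 0 := by
        obtain ⟨t, ht⟩ : ∃ t : F, t * a - t ^ 3 * b ≠ 0 := by
          by_cases e : a = b
          · refine ⟨μ, ?_⟩
            rw [e, show μ * b - μ ^ 3 * b = -(μ * (μ - 1) * (μ + 1) * b) by ring, neg_ne_zero]
            exact mul_ne_zero (mul_ne_zero (mul_ne_zero μ0 (sub_ne_zero.2 μ1)) fun e =>
              μ2 (eq_neg_of_add_eq_zero_left e)) b0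
          · exact ⟨1, by simpa using sub_ne_zero.2 e⟩
        rw [← s6] at f0 ⊢
        obtain ⟨β, -, hβ⟩ := Finset.exists_ne_zero_of_sum_ne_zero f0
        have l1 := v6 a b β t
        have l2 := v6 a b β (-t)
        rw [show -t * a - (-t) ^ 3 * b = -(t * a - t ^ 3 * b) by ring] at l2
        generalize t * a - t ^ 3 * b = s at ht l1 l2
        refine le_trans ?_ (Finset.sum_le_sum_of_subset (Finset.subset_univ {β, β + s, β + -s}))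
        have ss : s ≠ -s := fun e => mul_ne_zero t0 ht (by linear_combination e)
        rw [Finset.sum_insert (by simp [ht]), Finset.sum_insert (by simp [ss]), Finset.sum_singleton]
        omega
      have := sqs hk (fun a => N a 0 b 0) a0 fun z => f3.trans (t8 a b z)
      rw [sC, C0 b b0] at this
      have e4 : 4 ≤ e1 := by omega
      obtain ⟨d, hd⟩ := Nat.exists_eq_add_of_le e4
      rw [tot, J0, hd]
      nlinarith [Nat.zero_le (C 0 0 0), Nat.zero_le (k * d), Nat.zero_le (k * k * d), Nat.zero_le (k * e2),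
        Nat.zero_le (k * k * e2), Nat.zero_le (k * k)]
    have g1 : ∀ b ≠ 0, N 0 0 b 0 = e1 + k := fun b hb => by
      have := C0 b hb
      rw [← sC, spl hk _ fun a ha => f0 a ha b hb] at this
      omega
    have g2 : ∀ a ≠ 0, N a 0 0 0 = e2 + k := fun a ha => by
      have := B0 a ha
      rw [← sB, spl hk _ fun b hb => f0 a ha b hb] at this
      omega
    have d1 : ∀ b ≠ 0, (k + 1) * finrank ℂ ↥(A S ρ ψ 0 0 b 0 ⊓ J S ρ ψ 6 0) = e1 + k := fun b hb => by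
      rw [← g1 b hb, ← s6, cst _ (fun β β' => ?_) 0, hk]
      obtain ⟨t, ht⟩ := cube h3 ((β - β') / b)
      have := v6 0 b β t
      rwa [ht, div_mul_cancel₀ _ hb, show β + (t * 0 - (β - β')) = β' by ring] at this
    have d2 : ∀ a ≠ 0, (k + 1) * finrank ℂ ↥(A S ρ ψ a 0 0 0 ⊓ J S ρ ψ 7 0) = e2 + k := fun a ha => by
      rw [← g2 a ha, ← s7, cst _ (fun β β' => ?_) 0, hk]
      have := fr_le _ (j67 a β ((β - β') / a))
      rwa [div_mul_cancel₀ _ ha, sub_sub_cancel] at this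
    have pos : ∀ e d : ℕ, (k + 1) * d = e + k → 1 ≤ e := fun e d h => by
      rcases d with _ | d
      · omega
      · rw [mul_add] at h; omega
    have p1 := pos _ _ (d1 1 one_ne_zero)
    have p2 := pos _ _ (d2 1 one_ne_zero)
    have c0 : C 0 0 0 = N 0 0 0 0 + k * (e2 + k) := by rw [← sC, spl hk _ g2]
    rw [tot, J0, c0]
    by_cases big : 3 ≤ e1 + e2
    · obtain ⟨d, hd⟩ := Nat.exists_eq_add_of_le big
      have : k * (k + 2) * (e1 + e2) = k * (k + 2) * (3 + d) := by rw [hd]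
      nlinarith [Nat.zero_le (N 0 0 0 0), Nat.zero_le (k * d), Nat.zero_le (k * k * d), Nat.zero_le (k * k)]
    have q1 : e1 = 1 := by omega
    have q2 : e2 = 1 := by omega
    have o6 : ∀ b ≠ 0, finrank ℂ ↥(A S ρ ψ 0 0 0 0 ⊓ J S ρ ψ 6 b) = 1 := fun b hb => by
      have := d1 _ (div_ne_zero hb z6)
      rw [q1, add_comm 1 k, mul_eq_left₀ kp.ne'] at this
      refine Eq.trans (fr_eq (ρ := ρ) (S.n 7) fun v => ?_) this
      simp only [Submodule.mem_inf, ← J_iff0 zA w7BB, ← J_iff0 z8 w789, ← J_iff0 z9 w798, ← J_iff z6 w76A,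
        ← J_iff0 z7 w7A6]
      tauto
    have o7 : ∀ a ≠ 0, finrank ℂ ↥(A S ρ ψ 0 0 0 0 ⊓ J S ρ ψ 7 a) = 1 := fun a ha => by
      have := d2 _ (div_ne_zero ha z1)
      rw [q2, add_comm 1 k, mul_eq_left₀ kp.ne'] at this
      refine Eq.trans (fr_eq (ρ := ρ) (S.n 6) fun v => ?_) this
      simp only [Submodule.mem_inf, ← J_iff0 z5 w6BA, ← J_iff0 z3 w699, ← J_iff0 z4 w6AB, ← J_iff z1 w678,
        ← J_iff0 z2 w687]
      tauto
    let Γ : F → F → ℕ := fun a b => finrank ℂ ↥(A S ρ ψ 0 0 0 0 ⊓ J S ρ ψ 7 a ⊓ J S ρ ψ 6 b)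
    have r1 : ∀ a, ∑ b, Γ a b = finrank ℂ ↥(A S ρ ψ 0 0 0 0 ⊓ J S ρ ψ 7 a) := fun a => sum_fr hψ fun u v hv => by
      simpa only [mul_zero, sub_zero] using j67 0 a u v hv
    have r2 : ∀ b, ∑ a, Γ a b = finrank ℂ ↥(A S ρ ψ 0 0 0 0 ⊓ J S ρ ψ 6 b) := fun b => by
      refine Eq.trans (Finset.sum_congr rfl fun a1 _ => ?_) (sum_fr (r := 7) hψ fun u v hv =>
        ⟨i7' _ _ u v hv.1, by simpa using a76 u hv.2 hv.1.1.2 hv.1.1.1.2 hv.1.2 hv.1.1.1.1⟩)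
      exact congrArg (fun p : Submodule ℂ M => finrank ℂ p) (inf_right_comm _ _ _)
    have r3 : ∀ a ≠ 0, ∀ b ≠ 0, Γ a b = 0 := fun a ha b hb => by
      have l : Γ a b ≤ Γ a (-b) := fr_le (S.h 11 (-1)) fun v hv => ⟨⟨⟨⟨⟨tor0 (by decide) (by decide) _ hv.1.1.1.1.1,
        tor0 (by decide) (by decide) _ hv.1.1.1.1.2⟩, tor0 (by decide) (by decide) _ hv.1.1.1.2⟩,
        tor0 (by decide) (by decide) _ hv.1.1.2⟩, by
          simpa using tor (e := 11) (k := 0) (by decide) (by decide) _ (by decide) hv.1.2⟩, by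
          simpa [div_neg] using tor (e := 11) (k := 1) (by decide) (by decide) (-1) (by decide) hv.2⟩
      have := Finset.sum_le_sum_of_subset (f := Γ a) (Finset.subset_univ {b, -b})
      rw [r1, o7 a ha, Finset.sum_pair fun e => mul_ne_zero t0 hb (by linear_combination e)] at this
      omega
    have r4 : ∀ b ≠ 0, Γ 0 b = 1 := fun b hb => by
      have := r2 b
      rw [o6 b hb, spl hk _ fun a ha => r3 a ha b hb] at this
      omega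
    have := s7 0 0
    rw [spl hk _ o7, ← r1, spl hk _ r4] at this
    rw [← this, q1, q2]
    nlinarith [Nat.zero_le (Γ 0 0)]
  · obtain ⟨d, hd⟩ := Nat.exists_eq_add_of_le (show 2 ≤ m from m2)
    obtain ⟨j, hj⟩ := Nat.exists_eq_add_of_le k8
    rw [tot, hd]
    have : (k + 1) ^ 4 + (k + 1) ^ 2 ≤ k * (k * ((k + 1) * ((k + 1) * 2))) := by
      rw [hj]; ring_nf; omega
    refine this.trans ?_
    nlinarith [Nat.zero_le (finrank ℂ (J S ρ ψ 11 0)), Nat.zero_le (k * ((k + 1) * e1)),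
      Nat.zero_le (k * (k * ((k + 1) * (2 + d)))), Nat.zero_le (k * (k * ((k + 1) * ((k + 1) * d))))]

end L.Gm3
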