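import Cfsg.Agent.H21.SchurCover

/-! `L.ME G e`: the Schur multiplier of `G` has exponent dividing `e`; transfer, extensions, covers. -/

set_option autoImplicit false

namespace L
open Cfsg Subgroup

universe u
variable {G : Type u} [Group G] {e : ℕ}

/-- the multiplier has exponent dividing `e` -/
def ME (G : Type u) [Group G] (e : ℕ) : Prop := ∀ (X : Type u) [Group X] (ξ : X →* G), Function.Surjective ξ →
  ξ.ker ≤ center X → ∀ z ∈ ξ.ker, z ∈ commutator X → z ^ e = 1

theorem me_of {A : Type*} [CommGroup A] (hA : HasSchurMultiplier G A) (h : ∀ a : A, a ^ e = 1) : ME G e :=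
  fun X _ ξ s c z hz hz' => by
    obtain ⟨π, hπ⟩ := H21.schur_surj_central hA ξ s c
    obtain ⟨a, ha⟩ := hπ ⟨z, hz, hz'⟩
    have := congrArg Subtype.val (map_pow π a e)
    rw [h, map_one, ha] at this
    exact this.symm

theorem ME.congr {H : Type u} [Group H] (h : ME H e) (i : Nonempty (G ≃* H)) : ME G e := fun X _ ξ s c z hz hz' =>
  let ⟨i⟩ := i
  have k : (i.toMonoidHom.comp ξ).ker = ξ.ker := MonoidHom.ker_comp_of_injective _ _ i.injective
  h X _ (i.surjective.comp s) (k.le.trans c) z (k.ge hz) hz'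

theorem ME.res {U : Subgroup G} (h : ME U e) {X : Type u} [Group X] {ξ : X →* G} (s : Function.Surjective ξ)
    (c : ξ.ker ≤ center X) {z : X} (hz : z ∈ ξ.ker) (hz' : z ∈ ⁅U.comap ξ, U.comap ξ⁆) : z ^ e = 1 := by
  rw [← map_subtype_commutator] at hz'
  obtain ⟨z, h1, rfl⟩ := hz'
  exact congrArg Subtype.val (h _ (ξ.subgroupComap U) (ξ.subgroupComap_surjective_of_surjective U s)
    (fun x hx => mem_center_iff.2 fun y => Subtype.ext
      (mem_center_iff.1 (c (show ξ x = 1 from congrArg Subtype.val hx)) y)) z (Subtype.ext hz) h1)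

theorem ME.up {U : Subgroup G} (h : ME U e) {i : ℕ} (hi : U.index = i) (h0 : i ≠ 0) : ME G (i * e) :=
  fun X _ ξ s c z hz hz' => by
    have k := (index_comap_of_surjective U s).trans hi
    have : (U.comap ξ).FiniteIndex := ⟨k ▸ h0⟩
    rw [pow_mul]
    exact h.res s c (pow_mem hz _) (k ▸ H21.pow_index_mem_commutator _ (c hz) hz')

theorem ME.gcd {a b : ℕ} (h : ME G a) (h' : ME G b) : ME G (Nat.gcd a b) := fun X _ ξ s c z hz hz' =>
  pow_gcd_eq_one.2 ⟨h X ξ s c z hz hz', h' X ξ s c z hz hz'⟩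

theorem ME.triv [Finite G] (h : ME G 1) : HasCyclicSchurMultiplier G 1 :=
  H21.schur_trivial_of_forall_stem fun X _ _ ξ s => eq_bot_iff.2 fun z hz =>
    (pow_one z).symm.trans (h X ξ s.1 s.2.1 z hz (s.2.2 hz))

theorem me_triv (h : HasCyclicSchurMultiplier G 1) : ME G 1 :=
  me_of h fun _ => Subsingleton.elim (α := Fin 1) _ _

theorem me_cyc (p m : ℕ) [hp : Fact p.Prime] (h : Nat.card G = p * m) (h0 : m ≠ 0) : ME G m := by
  have : Finite G := Nat.finite_of_card_ne_zero (h ▸ mul_ne_zero hp.out.ne_zero h0)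
  obtain ⟨x, hx⟩ := exists_prime_orderOf_dvd_card' p (Dvd.intro _ h.symm)
  have k := (zpowers x).card_mul_index
  rw [Nat.card_zpowers, hx, h] at k
  exact mul_one m ▸ (me_triv (G := zpowers x) H21.schur_trivial_of_isCyclic).up
    (Nat.eq_of_mul_eq_mul_left hp.out.pos k) h0

theorem ME.ext {K : Subgroup G} [K.Normal] (hK : ⁅K, K⁆ = K) (h : ME K e) (h' : ME (G ⧸ K) 1) : ME G e :=
  fun X _ ξ s c z hz hz' => by
    have m : (⁅K.comap ξ, K.comap ξ⁆).map ξ = K := by rw [map_commutator, map_comap_eq_self_of_surjective s, hK]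
    refine h.res s c hz ((QuotientGroup.eq_one_iff z).1 ((pow_one _).symm.trans
      (h' _ (QuotientGroup.map _ K ξ (map_le_iff_le_comap.1 m.le)) (fun y => ?_) (fun y hy => ?_) z ?_ ?_)))
    · obtain ⟨y, rfl⟩ := QuotientGroup.mk_surjective y
      obtain ⟨y, rfl⟩ := s y
      exact ⟨y, rfl⟩
    · obtain ⟨y, rfl⟩ := QuotientGroup.mk_surjective y
      obtain ⟨w, h1, h2⟩ := m.ge ((QuotientGroup.eq_one_iff (ξ y)).1 hy)
      have k : w⁻¹ * y ∈ ξ.ker := by rw [MonoidHom.mem_ker, map_mul, map_inv, h2, inv_mul_cancel]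
      have k2 : (y : X ⧸ ⁅K.comap ξ, K.comap ξ⁆) = (w⁻¹ * y :) := by
        rw [QuotientGroup.mk_mul, (QuotientGroup.eq_one_iff _).2 (inv_mem h1), one_mul]
      refine mem_center_iff.2 fun x => ?_
      obtain ⟨x, rfl⟩ := QuotientGroup.mk_surjective x
      rw [k2, ← QuotientGroup.mk_mul, mem_center_iff.1 (c k), QuotientGroup.mk_mul]
    · exact (QuotientGroup.eq_one_iff (ξ z)).2 ((show ξ z = 1 from hz) ▸ one_mem _)
    · exact (H21.map_commutator_of_surjective _ (QuotientGroup.mk'_surjective _)).le ⟨z, hz', rfl⟩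

theorem me_cov {Q A : Type*} [Group Q] [CommGroup A] (hA : HasSchurMultiplier Q A) {f : G →* Q}
    (s : Function.Surjective f) (c : f.ker ≤ center G) (hp : commutator G = ⊤) {k : ℕ} (hk : Nat.card f.ker = k)
    (h0 : 0 < k) (h : Nat.card A = k * e) : ME G e := fun X _ ξ s' c' z hz hz' => by
  obtain ⟨p, t⟩ := H21.commutator_perfect_of_central ⟨hp⟩ ξ s' c'
  have c2 : (ξ.comp (commutator X).subtype).ker ≤ center _ := fun x hx => mem_center_iff.2 fun y => Subtype.ext
    (mem_center_iff.1 (c' (show ξ x = 1 from hx)) y)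
  have d := H21.schur_card_ker_dvd hA (f.comp (ξ.comp (commutator X).subtype)) ⟨s.comp t, fun x hx =>
    H21.mem_center_of_map_mem_center p _ c2 (c hx), fun _ _ => Group.IsPerfect.mem_commutator⟩
  have l : (ξ.comp (commutator X).subtype).ker ≤ f.ker.comap _ := ker_le_comap _ _
  rw [← MonoidHom.comap_ker, ← (((ξ.comp (commutator X).subtype).ker).subgroupOf _).index_mul_card, h,
    ← relIndex, relIndex_ker, map_comap_eq_self_of_surjective t, hk,
    Nat.card_congr (subgroupOfEquivOfLe l).toEquiv] at d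
  obtain ⟨j, rfl⟩ := Nat.dvd_of_mul_dvd_mul_left h0 d
  rw [pow_mul]
  have := pow_card_eq_one' (x := (⟨⟨z, hz'⟩, hz⟩ : (ξ.comp (commutator X).subtype).ker))
  rw [show z ^ _ = 1 from congrArg (fun w : (ξ.comp (commutator X).subtype).ker => (w : X)) this, one_pow]

end L
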