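import Cfsg.Agent.L.SFi22D2

/-! Generated certificate (toolsL) for the group SFi22 of degree 3510 and order 64561751654400. -/
set_option Elab.async false
set_option autoImplicit false
set_option maxRecDepth 100000
set_option maxHeartbeats 0
set_option linter.unusedSectionVars false
set_option linter.unusedVariables false

namespace L.SFi22
open H14 Cfsg

universe u

theorem icE_m2_16 : allL (TE.itChk BE_m2) itsE_m2_16 = true := by decide +kernel
theorem icE_m2_17 : allL (TE.itChk BE_m2) itsE_m2_17 = true := by decide +kernel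
theorem icE_m2_18 : allL (TE.itChk BE_m2) itsE_m2_18 = true := by decide +kernel
theorem icE_m2_19 : allL (TE.itChk BE_m2) itsE_m2_19 = true := by decide +kernel
theorem icE_m2_20 : allL (TE.itChk BE_m2) itsE_m2_20 = true := by decide +kernel
theorem icE_m2_21 : allL (TE.itChk BE_m2) itsE_m2_21 = true := by decide +kernel
theorem icE_m2_22 : allL (TE.itChk BE_m2) itsE_m2_22 = true := by decide +kernel
theorem icE_m2_23 : allL (TE.itChk BE_m2) itsE_m2_23 = true := by decide +kernel
theorem icE_m2_24 : allL (TE.itChk BE_m2) itsE_m2_24 = true := by decide +kernel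
theorem icE_m2_25 : allL (TE.itChk BE_m2) itsE_m2_25 = true := by decide +kernel
theorem icE_m2_26 : allL (TE.itChk BE_m2) itsE_m2_26 = true := by decide +kernel
theorem icE_m2_27 : allL (TE.itChk BE_m2) itsE_m2_27 = true := by decide +kernel
theorem icE_m2_28 : allL (TE.itChk BE_m2) itsE_m2_28 = true := by decide +kernel
theorem icE_m2_29 : allL (TE.itChk BE_m2) itsE_m2_29 = true := by decide +kernel
theorem icE_m2_30 : allL (TE.itChk BE_m2) itsE_m2_30 = true := by decide +kernel
theorem icE_m2_31 : allL (TE.itChk BE_m2) itsE_m2_31 = true := by decide +kernel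
theorem icE_m2_32 : allL (TE.itChk BE_m2) itsE_m2_32 = true := by decide +kernel
theorem icE_m2_33 : allL (TE.itChk BE_m2) itsE_m2_33 = true := by decide +kernel
theorem icE_m2_34 : allL (TE.itChk BE_m2) itsE_m2_34 = true := by decide +kernel
theorem icE_m2_35 : allL (TE.itChk BE_m2) itsE_m2_35 = true := by decide +kernel
theorem icE_m2_36 : allL (TE.itChk BE_m2) itsE_m2_36 = true := by decide +kernel
theorem icE_m2_37 : allL (TE.itChk BE_m2) itsE_m2_37 = true := by decide +kernel
theorem icE_m2_38 : allL (TE.itChk BE_m2) itsE_m2_38 = true := by decide +kernel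
theorem icE_m2_39 : allL (TE.itChk BE_m2) itsE_m2_39 = true := by decide +kernel
theorem icE_m2_40 : allL (TE.itChk BE_m2) itsE_m2_40 = true := by decide +kernel
theorem icE_m2_41 : allL (TE.itChk BE_m2) itsE_m2_41 = true := by decide +kernel
theorem icE_m2_42 : allL (TE.itChk BE_m2) itsE_m2_42 = true := by decide +kernel
theorem icE_m2_43 : allL (TE.itChk BE_m2) itsE_m2_43 = true := by decide +kernel
theorem icE_m2_44 : allL (TE.itChk BE_m2) itsE_m2_44 = true := by decide +kernel
theorem icE_m2_45 : allL (TE.itChk BE_m2) itsE_m2_45 = true := by decide +kernel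
theorem icE_m2_46 : allL (TE.itChk BE_m2) itsE_m2_46 = true := by decide +kernel
theorem icE_m2_47 : allL (TE.itChk BE_m2) itsE_m2_47 = true := by decide +kernel
theorem icE_m2_48 : allL (TE.itChk BE_m2) itsE_m2_48 = true := by decide +kernel
theorem icE_m2_49 : allL (TE.itChk BE_m2) itsE_m2_49 = true := by decide +kernel

end L.SFi22
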