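import Cfsg.Agent.L.SFi22D2

/-! Generated certificate (toolsL) for the group SFi22 of degree 3510 and order 64561751654400. -/
set_option Elab.async false
set_option autoImplicit false
set_option maxRecDepth 100000
set_option maxHeartbeats 0
set_option linter.unusedSectionVars false
set_option linter.unusedVariables false

namespace L.SFi22
open H14 Cfsg

universe u

theorem icE_m2_50 : allL (TE.itChk BE_m2) itsE_m2_50 = true := by decide +kernel
theorem icE_m2_51 : allL (TE.itChk BE_m2) itsE_m2_51 = true := by decide +kernel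
theorem icE_m2_52 : allL (TE.itChk BE_m2) itsE_m2_52 = true := by decide +kernel
theorem icE_m2_53 : allL (TE.itChk BE_m2) itsE_m2_53 = true := by decide +kernel
theorem icE_m2_54 : allL (TE.itChk BE_m2) itsE_m2_54 = true := by decide +kernel
theorem icE_m2_55 : allL (TE.itChk BE_m2) itsE_m2_55 = true := by decide +kernel
theorem icE_m2_56 : allL (TE.itChk BE_m2) itsE_m2_56 = true := by decide +kernel
theorem icE_m2_57 : allL (TE.itChk BE_m2) itsE_m2_57 = true := by decide +kernel
theorem icE_m2_58 : allL (TE.itChk BE_m2) itsE_m2_58 = true := by decide +kernel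
theorem icE_m2_59 : allL (TE.itChk BE_m2) itsE_m2_59 = true := by decide +kernel
theorem icE_m2_60 : allL (TE.itChk BE_m2) itsE_m2_60 = true := by decide +kernel
theorem icE_m2_61 : allL (TE.itChk BE_m2) itsE_m2_61 = true := by decide +kernel
theorem icE_m2_62 : allL (TE.itChk BE_m2) itsE_m2_62 = true := by decide +kernel
theorem icE_m2_63 : allL (TE.itChk BE_m2) itsE_m2_63 = true := by decide +kernel
theorem icE_m2_64 : allL (TE.itChk BE_m2) itsE_m2_64 = true := by decide +kernel
theorem lcE_m2 : labChk TE 3 BE_m2 tgE_m2 itsE_m2 = true := by decide +kernel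
theorem ixE_m2 : TE.idChk 4 skE_m2 = true := by decide +kernel
theorem rxE_m2 : relsChk 3510 nets 12 (idArr 3510 12 12 0) (relsOf wsE skE_m2) = true := by decide +kernel
theorem kc2_0 : relsChk 3510 nets 12 (idArr 3510 12 12 0) kr2_0 = true := by decide +kernel
theorem icB_m3_0 : allL (TB.itChk BB_m3) itsB_m3_0 = true := by decide +kernel
theorem lcB_m3 : labChk TB 1 BB_m3 tgB_m3 itsB_m3 = true := by decide +kernel
theorem icC_m3_0 : allL (TC.itChk BC_m3) itsC_m3_0 = true := by decide +kernel
theorem lcC_m3 : labChk TC 2 BC_m3 tgC_m3 itsC_m3 = true := by decide +kernel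
theorem ixC_m3 : TC.idChk 3 skC_m3 = true := by decide +kernel
theorem rxC_m3 : relsChk 3510 nets 12 (idArr 3510 12 12 0) (relsOf wsC skC_m3) = true := by decide +kernel
theorem icD_m3_0 : allL (TD.itChk BD_m3) itsD_m3_0 = true := by decide +kernel
theorem lcD_m3 : labChk TD 4 BD_m3 tgD_m3 itsD_m3 = true := by decide +kernel
theorem icP_m5_0 : allL (TP.itChk BP_m5) itsP_m5_0 = true := by decide +kernel
theorem lcP_m5 : labChk TP 2 BP_m5 tgP_m5 itsP_m5 = true := by decide +kernel
theorem fac : facChk 64561751654400 [2, 3, 5] 64497254400 1001 17 32 = true := by decide +kernel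
theorem wfC0 : TC0.wf = true := by decide +kernel
theorem crC0E_0 : TC0.covRel BC0 (List.take 17 lvE) = true := by decide +kernel
theorem crC0E_1 : TC0.covRel BC0 (List.take 12 (List.drop 17 lvE)) = true := by decide +kernel
theorem crC0E_2 : TC0.covRel BC0 (List.take 11 (List.drop 12 (List.drop 17 lvE))) = true := by decide +kernel
theorem crC0E_3 : TC0.covRel BC0 (List.take 11 (List.drop 11 (List.drop 12 (List.drop 17 lvE)))) = true := by decide +kernel

end L.SFi22
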