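import Cfsg.Agent.L.SFi22D2

/-! Generated certificate (toolsL) for the group SFi22 of degree 3510 and order 64561751654400. -/
set_option Elab.async false
set_option autoImplicit false
set_option maxRecDepth 100000
set_option maxHeartbeats 0
set_option linter.unusedSectionVars false
set_option linter.unusedVariables false

namespace L.SFi22
open H14 Cfsg

universe u

theorem crC1C_2 : TC1.covRel BC1 (List.take 2 (List.drop 1 (List.drop 6 lvC))) = true := by decide +kernel
theorem crC1C_3 : TC1.covRel BC1 (List.take 1 (List.drop 2 (List.drop 1 (List.drop 6 lvC)))) = true := by decide +kernel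
theorem crC1C_4 : TC1.covRel BC1 (List.drop 1 (List.drop 2 (List.drop 1 (List.drop 6 lvC)))) = true := by decide +kernel
theorem crC1B_0 : TC1.covRel BC1 (List.take 4 lvB) = true := by decide +kernel
theorem crC1B_1 : TC1.covRel BC1 (List.drop 4 lvB) = true := by decide +kernel
theorem crC1A_0 : TC1.covRel BC1 lvA = true := by decide +kernel
theorem lw0r : relsChk 3510 nets 12 (idArr 3510 12 12 0) [((flat wsE (commW lw0a lw0b)), [])] = true := by decide +kernel
theorem lw0C0 : TC0.trChk BC0 (flat wsE (commW lw0a lw0b)) (fun _ => nth 0 [nat_lit 1]) = true := by decide +kernel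
theorem lw0C1 : TC1.trChk BC1 (flat wsE (commW lw0a lw0b)) (fun _ => nth 0 [nat_lit 0]) = true := by decide +kernel
theorem lw1r : relsChk 3510 nets 12 (idArr 3510 12 12 0) [((flat wsE (commW lw1a lw1b)), [])] = true := by decide +kernel
theorem lw1C0 : TC0.trChk BC0 (flat wsE (commW lw1a lw1b)) (fun _ => nth 0 [nat_lit 0]) = true := by decide +kernel
theorem lw1C1 : TC1.trChk BC1 (flat wsE (commW lw1a lw1b)) (fun _ => nth 0 [nat_lit 2]) = true := by decide +kernel
theorem dc_0 : relsChk 3510 nets 12 (idArr 3510 12 12 0) (List.take 13 (defRels defs 9)) = true := by decide +kernel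
theorem dc_1 : relsChk 3510 nets 12 (idArr 3510 12 12 0) (List.take 12 (List.drop 13 (defRels defs 9))) = true := by decide +kernel
theorem dc_2 : relsChk 3510 nets 12 (idArr 3510 12 12 0) (List.drop 12 (List.drop 13 (defRels defs 9))) = true := by decide +kernel

end L.SFi22
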