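import Cfsg.Agent.H3.Suz1
import Mathlib.FieldTheory.Finite.GaloisField
import Mathlib.RingTheory.RootsOfUnity.PrimitiveRoots

/-! Field lemmas for Shaw's form of Higman's theorem: an automorphism of order `m`, a divisor of `q - 1` of small
index (`L.Sh.Ar F m`), replaces the generator of the multiplicative group. -/

set_option autoImplicit false
set_option linter.style.haveILetI false
set_option linter.unusedSectionVars false

namespace L.Sh

open H3 Finset

/-- the arithmetic of elements of order `m` -/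
structure Ar (F : Type*) [Field F] [Fintype F] (m : ℕ) : Prop where
  dvd : m ∣ Fintype.card F - 1
  big : Fintype.card F < 2 ^ m
  a2 : ∀ μ l : F, orderOf μ = m → orderOf l = m → ∀ σ₁ σ₂ τ₁ τ₂ : F ≃+* F, l = σ₁ μ * σ₂ μ → l = τ₁ μ * τ₂ μ →
    (σ₁ = τ₁ ∧ σ₂ = τ₂) ∨ (σ₁ = τ₂ ∧ σ₂ = τ₁)
  a3 : ∀ μ l : F, orderOf μ = m → orderOf l = m → ∀ ρ₁ ρ₂ : F ≃+* F, l = ρ₁ μ * ρ₂ μ →
    ∀ σ τ σ' τ' : F ≃+* F, σ μ * τ l = l → σ' μ * τ' l = l → σ = σ' ∧ τ = τ'
  a4 : ∀ p, p.Prime → p ∣ Fintype.card F - 1 → p ∣ m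

variable {F : Type*} [Field F] [Fintype F] {m : ℕ} {μ l : F}

theorem ord_map (σ : F ≃+* F) (μ : F) : orderOf (σ μ) = orderOf μ :=
  orderOf_injective (σ : F →* F) σ.injective μ

namespace Ar
variable (A : Ar F m)
include A

theorem two_le : 2 ≤ m := by
  have h1 := A.big
  have h2 : 1 < Fintype.card F := Fintype.one_lt_card
  by_contra h
  have : 2 ^ m ≤ 2 ^ 1 := Nat.pow_le_pow_right (by norm_num) (by omega)
  omega

theorem ne0 (h : orderOf μ = m) : μ ≠ 0 := by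
  rintro rfl
  have h1 := pow_orderOf_eq_one (0 : F)
  have := A.two_le
  rw [h, zero_pow (by omega)] at h1
  exact zero_ne_one h1

theorem ne1 (h : orderOf μ = m) : μ ≠ 1 := by
  rintro rfl
  have := A.two_le
  rw [orderOf_one] at h; omega

variable [CharP F 2]

theorem odd : Odd m := by
  obtain ⟨n, -, hn⟩ := FiniteField.card F 2
  refine Odd.of_dvd_nat ?_ A.dvd
  rw [hn]
  exact Nat.Even.sub_odd (Nat.one_le_two_pow) (Nat.even_pow.2 ⟨even_two, n.ne_zero⟩) odd_one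

theorem a1 (h : orderOf μ = m) {σ τ : F ≃+* F} (e : σ μ = τ μ) : σ = τ := by
  have h1 : orderOf (σ μ * σ μ) = m := by
    rw [← pow_two, Nat.Coprime.orderOf_pow, ord_map, h]
    rw [ord_map, h]; exact Nat.coprime_two_right.2 A.odd
  rcases A.a2 μ _ h h1 σ σ τ τ rfl (by rw [e]) with h | h <;> exact h.1

theorem span (h : orderOf μ = m) (S : Set F) (h0 : (0 : F) ∈ S) (ha : ∀ a ∈ S, ∀ b ∈ S, a + b ∈ S)
    (hm : ∀ a ∈ S, μ * a ∈ S) {s : F} (hs : s ∈ S) (hs0 : s ≠ 0) (x : F) : x ∈ S := by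
  classical
  have hp : ∀ a : F, (∀ s ∈ S, a * s ∈ S) → ∀ k : ℕ, ∀ s ∈ S, a ^ k * s ∈ S := fun a h k => by
    induction k with
    | zero => simp
    | succ k ih => intro s hs; rw [pow_succ', mul_assoc]; exact h _ (ih s hs)
  let R : Subfield F :=
    { carrier := {a | ∀ s ∈ S, a * s ∈ S}
      mul_mem' := fun {a b} h1 h2 s hs => by rw [mul_assoc]; exact h1 _ (h2 s hs)
      one_mem' := fun s hs => by rwa [one_mul]
      add_mem' := fun {a b} h1 h2 s hs => by rw [add_mul]; exact ha _ (h1 s hs) _ (h2 s hs)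
      zero_mem' := fun s _ => by rwa [zero_mul]
      neg_mem' := fun {a} h1 s hs => by rw [CharTwo.neg_eq]; exact h1 s hs
      inv_mem' := fun a h1 => by
        by_cases e : a = 0
        · intro s _; rwa [e, inv_zero, zero_mul]
        have h2 : 1 < Fintype.card F := Fintype.one_lt_card
        have : a⁻¹ = a ^ (Fintype.card F - 2) := by
          refine inv_eq_of_mul_eq_one_right ?_
          rw [← pow_succ', show Fintype.card F - 2 + 1 = Fintype.card F - 1 by omega,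
            FiniteField.pow_card_sub_one_eq_one a e]
        rw [this]; exact hp a h1 _ }
  have hR : ∀ y : F, y ∈ R := fun y => by
    have : y ∈ (⊥ : IntermediateField R F) := (IsGalois.mem_bot_iff_fixed y).2 fun f => by
      have e : f.toRingEquiv = RingEquiv.refl F := A.a1 h (f.commutes ⟨μ, hm⟩)
      exact DFunLike.congr_fun e y
    obtain ⟨z, rfl⟩ := IntermediateField.mem_bot.1 this
    exact z.2
  have := hR (x / s) s hs
  rwa [div_mul_cancel₀ _ hs0] at this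

theorem add_mono (h : orderOf μ = m) (f : F → F) (hf : ∀ x y, f (x + y) = f x + f y)
    (he : ∀ x, f (μ * x) = l * f x) {σ : F ≃+* F} (hσ : σ μ = l) : ∀ x, f x = f 1 * σ x :=
  A.span h {x | f x = f 1 * σ x} (by
    have := hf 0 0
    rw [add_zero] at this
    show f 0 = f 1 * σ 0
    rw [map_zero, mul_zero]; linear_combination -this)
    (fun a ha b hb => by
      show f (a + b) = f 1 * σ (a + b)
      rw [hf, map_add, show f a = _ from ha, show f b = _ from hb, mul_add])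
    (fun a ha => by
      show f (μ * a) = f 1 * σ (μ * a)
      rw [he, map_mul, show f a = _ from ha, hσ]; ring) (s := 1) (by simp) one_ne_zero

theorem quad_weight (Q : F → F) (B : F → F → F) (hQ : ∀ x y, Q (x + y) = Q x + Q y + B x y)
    (h1 : ∀ x x' y, B (x + x') y = B x y + B x' y) (h2 : ∀ x y y', B x (y + y') = B x y + B x y')
    (hμ : orderOf μ = m) (hl' : orderOf l = m) (he : ∀ x, Q (μ * x) = l * Q x) (h0 : ∃ x, Q x ≠ 0) :
    ∃ (c : F) (ρ₁ ρ₂ : F ≃+* F), c ≠ 0 ∧ l = ρ₁ μ * ρ₂ μ ∧ ∀ x, Q x = c * (ρ₁ x * ρ₂ x) := by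
  classical
  have hadd : (∀ x y, B x y = 0) →
      ∃ (c : F) (ρ₁ ρ₂ : F ≃+* F), c ≠ 0 ∧ l = ρ₁ μ * ρ₂ μ ∧ ∀ x, Q x = c * (ρ₁ x * ρ₂ x) := fun h => by
    have ha : ∀ x y, Q (x + y) = Q x + Q y := fun x y => by rw [hQ, h, add_zero]
    obtain ⟨σ, hσ⟩ := add_equiv Q ha he h0
    have e : ∀ x, ((frob F)⁻¹ * σ) x * ((frob F)⁻¹ * σ) x = σ x := fun x => by
      rw [← frob_apply, ← RingAut.mul_apply, mul_inv_cancel_left]
    have := A.add_mono hμ Q ha he hσ
    refine ⟨Q 1, (frob F)⁻¹ * σ, (frob F)⁻¹ * σ, fun h => ?_, by rw [e, hσ], fun x => by rw [e, ← this]⟩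
    obtain ⟨x, hx⟩ := h0
    exact hx (by rw [this, h, zero_mul])
  obtain ⟨c, hc, hw⟩ := bil_equiv B h1 h2 (μ := μ) (ν := μ) (l := l) fun x y => by
    have := hQ (μ * x) (μ * y)
    rw [← mul_add, he, he, he, hQ] at this
    linear_combination -this
  by_cases h : ∃ σ τ, c σ τ ≠ 0
  swap
  · push Not at h
    exact hadd fun x y => by simp [hc, h]
  obtain ⟨ρ₁, ρ₂, h⟩ := h
  have hl := (hw _ _ h).symm
  have hB0 : B 0 0 = 0 := by have := h1 0 0 0; rw [add_zero] at this; linear_combination -this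
  have hQ0 : Q 0 = 0 := by have := hQ 0 0; rw [add_zero, hB0] at this; linear_combination -this
  have hxx : ∀ x, B x x = 0 := fun x => by
    have := hQ x x
    rw [CharTwo.add_self_eq_zero, CharTwo.add_self_eq_zero, hQ0, zero_add] at this
    exact this.symm
  have hz : ∀ σ τ, ¬ (σ = ρ₁ ∧ τ = ρ₂) → ¬ (σ = ρ₂ ∧ τ = ρ₁) → c σ τ = 0 := fun σ τ n1 n2 => by
    by_contra h'
    rcases A.a2 μ l hμ hl' σ τ ρ₁ ρ₂ (hw _ _ h').symm hl with e | e
    exacts [n1 e, n2 e]
  by_cases hρ : ρ₁ = ρ₂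
  · subst hρ
    exfalso
    have := hxx 1
    rw [hc, Finset.sum_eq_single ρ₁, Finset.sum_eq_single ρ₁] at this
    · simp at this; exact h this
    · intro τ _ hτ; rw [hz _ _ (fun e => hτ e.2) (fun e => hτ e.2), zero_mul]
    · simp
    · intro σ _ hσ
      exact Finset.sum_eq_zero fun τ _ => by rw [hz _ _ (fun e => hσ e.1) (fun e => hσ e.1), zero_mul]
    · simp
  have hB : ∀ x y, B x y = c ρ₁ ρ₂ * (ρ₁ x * ρ₂ y) + c ρ₂ ρ₁ * (ρ₂ x * ρ₁ y) := fun x y => by
    rw [hc, Finset.sum_eq_add ρ₁ ρ₂ hρ, Finset.sum_eq_single ρ₂, Finset.sum_eq_single ρ₁]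
    · intro τ _ hτ; rw [hz _ _ (fun e => hρ e.1.symm) (fun e => hτ e.2), zero_mul]
    · simp
    · intro τ _ hτ; rw [hz _ _ (fun e => hτ e.2) (fun e => hρ e.1), zero_mul]
    · simp
    · intro σ _ hσ
      exact Finset.sum_eq_zero fun τ _ => by rw [hz _ _ (fun e => hσ.1 e.1) (fun e => hσ.2 e.1), zero_mul]
    · simp
    · simp
  have hcc : c ρ₂ ρ₁ = c ρ₁ ρ₂ := by
    have := hxx 1
    rw [hB] at this
    simp only [map_one, mul_one] at this
    exact (CharTwo.add_eq_zero.1 this).symm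
  refine ⟨c ρ₁ ρ₂, ρ₁, ρ₂, h, hl, fun x => ?_⟩
  by_contra hne
  obtain ⟨σ, hσ⟩ := add_equiv (fun x => Q x - c ρ₁ ρ₂ * (ρ₁ x * ρ₂ x)) (fun x y => by
    rw [hQ, hB, hcc, map_add, map_add]; ring) (μ := μ) (l := l) (fun x => by
      rw [he, hl, map_mul, map_mul]; ring) ⟨x, sub_ne_zero.2 hne⟩
  have e : ((frob F)⁻¹ * σ) μ * ((frob F)⁻¹ * σ) μ = σ μ := by
    rw [← frob_apply, ← RingAut.mul_apply, mul_inv_cancel_left]
  rcases A.a2 μ l hμ hl' _ _ ρ₁ ρ₂ (e.trans hσ).symm hl with e | e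
  · exact hρ (e.1.symm.trans e.2)
  · exact hρ (e.2.symm.trans e.1)

omit A in
theorem indep {ι : Type*} (B : F → F → F) (h2 : ∀ x y y', B x (y + y') = B x y + B x y') (y : ι → F)
    (hy : ∀ i, y i ≠ 0) (hE : ∀ i x, B x (y i) = 0 ∨ B x (y i) = y i) (T : Finset ι)
    (hd : ∀ i ∈ T, ∀ j ∈ T, i ≠ j → ∃ x, B x (y i) = y i ∧ B x (y j) = 0 ∨ B x (y i) = 0 ∧ B x (y j) = y j)
    (h0 : ∑ i ∈ T, y i = 0) : T = ∅ := by
  classical
  induction T using Finset.strongInduction with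
  | H T ih =>
  by_contra hne
  obtain ⟨i, hi⟩ := Finset.nonempty_iff_ne_empty.2 hne
  by_cases h1 : ∃ j ∈ T, j ≠ i
  swap
  · push Not at h1
    rw [Finset.sum_eq_single i (fun j hj hji => (hji (h1 j hj)).elim) (fun h => (h hi).elim)] at h0
    exact hy i h0
  obtain ⟨j, hj, hji⟩ := h1
  have key : ∀ x, ∀ a ∈ T, ∀ b ∈ T, B x (y a) = y a → B x (y b) = 0 → False := fun x a ha b hb e1 e2 => by
    have hs : ∑ k ∈ T.filter (fun k => B x (y k) = y k), y k = 0 := by
      have := map_sum (AddMonoidHom.mk' (B x) (h2 x)) y T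
      rw [h0, map_zero] at this
      rw [this, Finset.sum_filter]
      refine Finset.sum_congr rfl fun k _ => ?_
      simp only [AddMonoidHom.mk'_apply]
      split_ifs with h
      · exact h.symm
      · exact ((hE k x).resolve_right h).symm
    have := ih _ (Finset.filter_ssubset.2 ⟨b, hb, by rw [e2]; exact (hy b).symm⟩)
      (fun i hi j hj => hd i (Finset.mem_filter.1 hi).1 j (Finset.mem_filter.1 hj).1) hs
    have h3 : a ∈ T.filter (fun k => B x (y k) = y k) := Finset.mem_filter.2 ⟨ha, e1⟩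
    rw [this] at h3
    simp at h3
  obtain ⟨x, h | h⟩ := hd i hi j hj hji.symm
  · exact key x i hi j hj h.1 h.2
  · exact key x j hj i hi h.2 h.1

theorem idem_zero (B : F → F → F)
    (h1 : ∀ x x' y, B (x + x') y = B x y + B x' y) (h2 : ∀ x y y', B x (y + y') = B x y + B x y')
    (hμ : orderOf μ = m) (hl : orderOf l = m) (he : ∀ x y, B (μ * x) (l * y) = l * B x y)
    (hi : ∀ x y, B x (B x y) = B x y) : ∃ x, x ≠ 0 ∧ ∀ y, B x y = 0 := by
  classical
  have hc : ∀ x x' y, B x (B x' y) = B x' (B x y) := fun x x' y => by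
    have := hi (x + x') y
    rw [h1, h1, h2, h2, hi, hi] at this
    exact CharTwo.add_eq_zero.1 (by linear_combination this)
  have hB0 : ∀ x, B x 0 = 0 := fun x => by have := h2 x 0 0; rw [add_zero] at this; linear_combination -this
  let E : F → Set F := fun y => {x | B x y = 0 ∨ B x y = y}
  obtain ⟨y, hy0, hy⟩ := Set.exists_max_image {y : F | y ≠ 0} (fun y => (E y).ncard) (Set.toFinite _)
    ⟨1, one_ne_zero⟩
  replace hy0 : y ≠ 0 := hy0
  have hE : ∀ x, B x y = 0 ∨ B x y = y := fun x => by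
    by_contra hx
    have hx' := not_or.1 hx
    have := hy (B x y) hx'.1
    refine absurd this (not_le.2 (Set.ncard_lt_ncard ⟨fun x' hx' => ?_, fun h => hx (h (Or.inr (hi x y)))⟩
      (Set.toFinite _)))
    rcases hx' with e | e
    · exact Or.inl (by rw [hc, e, hB0])
    · exact Or.inr (by rw [hc, e])
  have hμ0 := A.ne0 hμ
  have hl0 := A.ne0 hl
  have hek : ∀ (k : ℕ) x, B x (l ^ k * y) = l ^ k * B (x / μ ^ k) y := fun k => by
    induction k with
    | zero => simp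
    | succ k ih =>
      intro x
      have := he (x / μ) (l ^ k * y)
      rw [mul_div_cancel₀ _ hμ0, ih] at this
      rw [pow_succ', mul_assoc, this, mul_assoc, div_div, ← pow_succ']
  by_cases hz : ∀ x, B x y = 0
  · refine ⟨1, one_ne_zero, fun y' => ?_⟩
    have := A.span hl {y' | ∀ x, B x y' = 0} hB0 (fun a ha b hb x => by rw [h2, ha, hb, add_zero])
      (fun a ha x => by
        have := he (x / μ) a
        rwa [mul_div_cancel₀ _ hμ0, ha, mul_zero] at this) hz hy0 y'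
    exact this 1
  exfalso
  push Not at hz
  obtain ⟨x₀, hx₀⟩ := hz
  have hyk : ∀ k : Fin m, l ^ (k : ℕ) * y ≠ 0 := fun k => mul_ne_zero (pow_ne_zero _ hl0) hy0
  have hEk : ∀ (k : Fin m) x, B x (l ^ (k : ℕ) * y) = 0 ∨ B x (l ^ (k : ℕ) * y) = l ^ (k : ℕ) * y := fun k x => by
    rw [hek]
    rcases hE (x / μ ^ (k : ℕ)) with e | e <;> rw [e]
    · simp
    · simp
  have hd : ∀ i j : Fin m, i ≠ j → ∃ x, B x (l ^ (i : ℕ) * y) = l ^ (i : ℕ) * y ∧ B x (l ^ (j : ℕ) * y) = 0 ∨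
      B x (l ^ (i : ℕ) * y) = 0 ∧ B x (l ^ (j : ℕ) * y) = l ^ (j : ℕ) * y := fun i j hij => by
    have hne : (μ ^ (i : ℕ))⁻¹ + (μ ^ (j : ℕ))⁻¹ ≠ 0 := fun e => hij (Fin.ext (by
      have := inv_injective (CharTwo.add_eq_zero.1 e)
      exact pow_injOn_Iio_orderOf (by rw [hμ]; exact i.2) (by rw [hμ]; exact j.2) this))
    let x := x₀ / ((μ ^ (i : ℕ))⁻¹ + (μ ^ (j : ℕ))⁻¹)
    have e : x₀ = x / μ ^ (i : ℕ) + x / μ ^ (j : ℕ) := by
      rw [div_eq_mul_inv x, div_eq_mul_inv x, ← mul_add, div_mul_cancel₀ _ hne]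
    refine ⟨x, ?_⟩
    rw [e, h1] at hx₀
    rw [hek, hek]
    rcases hE (x / μ ^ (i : ℕ)) with e1 | e1 <;> rcases hE (x / μ ^ (j : ℕ)) with e2 | e2 <;> rw [e1, e2] at hx₀ ⊢
    · simp at hx₀
    · simp
    · simp
    · exact (hx₀ (CharTwo.add_self_eq_zero _)).elim
  have inj : Function.Injective (fun T : Finset (Fin m) => ∑ k ∈ T, l ^ (k : ℕ) * y) := fun S T e => by
    have h0 := indep B h2 (fun k : Fin m => l ^ (k : ℕ) * y) hyk hEk ((S \ T) ∪ (T \ S))
      (fun i _ j _ => hd i j) (by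
        rw [Finset.sum_union disjoint_sdiff_sdiff, CharTwo.add_eq_zero, ← sub_eq_zero,
          Finset.sum_sdiff_sub_sum_sdiff, sub_eq_zero]
        exact e)
    rw [Finset.union_eq_empty, Finset.sdiff_eq_empty_iff_subset, Finset.sdiff_eq_empty_iff_subset] at h0
    exact Finset.Subset.antisymm h0.1 h0.2
  have := Fintype.card_le_of_injective _ inj
  rw [Fintype.card_finset, Fintype.card_fin] at this
  exact absurd A.big (not_lt.2 this)

omit [CharP F 2] in
theorem eig_unique (hμ : orderOf μ = m) (hl : orderOf l = m) {σ τ : F ≃+* F} (h : σ μ * τ l = l)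
    {k y y' : F} (h0 : y ≠ 0) (h0' : y' ≠ 0) (e : y = k * τ y) (e' : y' = k * τ y') : y = y' := by
  classical
  have hk : k ≠ 0 := fun hk => h0 (by rw [e, hk, zero_mul])
  have e1 : τ (y / y') = y / y' := by
    rw [map_div₀]
    conv_rhs => rw [e, e', mul_div_mul_left _ _ hk]
  by_contra hne
  have t0 : y / y' ≠ 0 := div_ne_zero h0 h0'
  have t1 : y / y' ≠ 1 := fun e => hne ((div_eq_one_iff_eq h0').1 e)
  generalize y / y' = t at e1 t0 t1
  have ht : orderOf t ∣ Fintype.card F - 1 := orderOf_dvd_of_pow_eq_one (FiniteField.pow_card_sub_one_eq_one t t0)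
  obtain ⟨p, hp, r, hr⟩ := Nat.exists_prime_and_dvd (n := orderOf t) (fun e => t1 (orderOf_eq_one_iff.1 e))
  obtain ⟨s, hs⟩ := A.a4 p hp ((Dvd.intro _ hr.symm).trans ht)
  have h2 : 1 < Fintype.card F := Fintype.one_lt_card
  have hr0 : r ≠ 0 := by
    rintro rfl
    rw [hr, mul_zero, zero_dvd_iff] at ht; omega
  have hm0 : m ≠ 0 := by have := A.two_le; omega
  have p1 : IsPrimitiveRoot (l ^ s) p := by
    have := IsPrimitiveRoot.orderOf l
    rw [hl] at this
    exact this.pow (Nat.pos_of_ne_zero hm0) (by rw [hs, mul_comm])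
  haveI : NeZero p := ⟨hp.ne_zero⟩
  obtain ⟨i, -, hi⟩ := p1.eq_pow_of_pow_eq_one (ξ := t ^ r) (by rw [← pow_mul, mul_comm, ← hr, pow_orderOf_eq_one])
  rw [← pow_mul] at hi
  have e2 : σ (μ ^ (s * i)) * τ (l ^ (s * i)) = l ^ (s * i) := by rw [map_pow, map_pow, ← mul_pow, h]
  rw [hi, map_pow τ, e1] at e2
  have e3 : μ ^ (s * i) = 1 := σ.injective (by
    rw [map_one]; exact mul_right_cancel₀ (pow_ne_zero r t0) (e2.trans (one_mul _).symm))
  rw [← orderOf_dvd_iff_pow_eq_one, hμ, ← hl, orderOf_dvd_iff_pow_eq_one, hi, ← orderOf_dvd_iff_pow_eq_one, hr] at e3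
  have := Nat.le_of_dvd (Nat.pos_of_ne_zero hr0) e3
  have := hp.two_le
  nlinarith [Nat.pos_of_ne_zero hr0]

end Ar
end L.Sh
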