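import Cfsg.Agent.L.Sh1
import Cfsg.Agent.H3.Suz3

/-! Field coordinates on sections, for an automorphism `ξ` of order `m` with `Ar F m` (port of `H3/Suz2`). -/

set_option autoImplicit false
set_option linter.style.haveILetI false
set_option linter.unusedSectionVars false

namespace L.Sh

open Subgroup H18
open H3 hiding Coord FPF Bil Suz
open scoped commutatorElement

variable {P : Type*} [Group P] {F : Type*} [Field F] [Fintype F] [CharP F 2]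

/-- `f` identifies `X / Y` with `F`, with `ξ` acting as `μ` -/
structure Coord (ξ : MulAut P) (X Y : Subgroup P) (f : P → F) (μ : F) : Prop where
  inv : XInv ξ X
  le : Y ≤ X
  add : AddOn X f
  ker : ∀ x ∈ X, f x = 0 ↔ x ∈ Y
  surj : ∀ a, ∃ x ∈ X, f x = a
  conj : ∀ x ∈ X, f (ξ x) = μ * f x
  gen : orderOf μ = orderOf ξ
  ar : Ar F (orderOf ξ)

/-- the non-trivial powers of `ξ` are fixed-point-free -/
structure FPF (ξ : MulAut P) (F : Type*) [Field F] [Fintype F] : Prop where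
  ar : Ar F (orderOf ξ)
  fpf : ∀ (k : ℕ) x, (ξ ^ k) x = x → x = 1 ∨ ξ ^ k = 1

variable {ξ : MulAut P} {X Y X' Y' M W : Subgroup P} {f f' : P → F} {μ ν : F} {x y : P}

namespace Coord

theorem zero (h : Coord ξ X Y f μ) (hy : y ∈ Y) : f y = 0 := (h.ker y (h.le hy)).2 hy

theorem inv' (h : Coord ξ X Y f μ) : XInv ξ Y := fun y hy =>
  (h.ker _ (h.inv _ (h.le hy))).1 (by rw [h.conj _ (h.le hy), h.zero hy, mul_zero])

theorem eq_iff (h : Coord ξ X Y f μ) (hx : x ∈ X) (hy : y ∈ X) : f x = f y ↔ x * y⁻¹ ∈ Y := by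
  rw [← h.ker _ (X.mul_mem hx (X.inv_mem hy)), h.add _ hx _ (X.inv_mem hy), h.add.inv hy, ← sub_eq_add_neg,
    sub_eq_zero]

theorem conj_pow (h : Coord ξ X Y f μ) (k : ℕ) (hx : x ∈ X) : f ((ξ ^ k) x) = μ ^ k * f x := by
  induction k with
  | zero => simp
  | succ k ih => rw [pow_succ', MulAut.mul_apply, h.conj _ (h.inv.pow k x hx), ih, pow_succ', mul_assoc]

theorem card [Finite P] (h : Coord ξ X Y f μ) : Nat.card X = Nat.card Y * Nat.card F := by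
  let φ : X →* Multiplicative F := MonoidHom.mk' (fun x => Multiplicative.ofAdd (f x))
    fun x y => congrArg Multiplicative.ofAdd (h.add _ x.2 _ y.2)
  have h1 : φ.ker = Y.subgroupOf X := by ext x; exact h.ker _ x.2
  have h2 : φ.range = ⊤ := by
    rw [eq_top_iff]; intro a _
    obtain ⟨x, hx, e⟩ := h.surj a.toAdd
    exact ⟨⟨x, hx⟩, congrArg Multiplicative.ofAdd e⟩
  rw [← φ.ker.card_mul_index, index_ker, h1, h2, card_top, Nat.card_congr (subgroupOfEquivOfLe h.le).toEquiv]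
  rfl

theorem surj_of (h : Coord ξ X Y f μ) (hW : XInv ξ W) (hWX : W ≤ X) (hn : ¬W ≤ Y) (a : F) :
    ∃ w ∈ W, f w = a := by
  obtain ⟨w, hw, hwY⟩ := SetLike.not_le_iff_exists.1 hn
  have h0 : f w ≠ 0 := fun e => hwY ((h.ker w (hWX hw)).1 e)
  exact h.ar.span h.gen {a | ∃ w ∈ W, f w = a} ⟨1, W.one_mem, h.add.one⟩ (by
    rintro _ ⟨u, hu, rfl⟩ _ ⟨v, hv, rfl⟩
    exact ⟨u * v, W.mul_mem hu hv, h.add _ (hWX hu) _ (hWX hv)⟩) (by
    rintro _ ⟨u, hu, rfl⟩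
    exact ⟨ξ u, hW u hu, h.conj _ (hWX hu)⟩) ⟨w, hw, rfl⟩ h0 a

theorem exists_mul (h : Coord ξ X Y f μ) (hW : XInv ξ W) (hWX : W ≤ X) (hn : ¬W ≤ Y) (hx : x ∈ X) :
    ∃ w ∈ W, x * w⁻¹ ∈ Y := by
  obtain ⟨w, hw, e⟩ := h.surj_of hW hWX hn (f x)
  exact ⟨w, hw, (h.eq_iff hx (hWX hw)).1 e.symm⟩

theorem chief (h : Coord ξ X Y f μ) (hW : XInv ξ W) (hYW : Y ≤ W) (hWX : W ≤ X) : W = Y ∨ W = X := by
  by_cases hn : W ≤ Y
  · exact Or.inl (le_antisymm hn hYW)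
  refine Or.inr (le_antisymm hWX fun x hx => ?_)
  obtain ⟨w, hw, e⟩ := h.exists_mul hW hWX hn hx
  simpa using W.mul_mem (hYW e) hw

theorem not_le (h : Coord ξ X Y f μ) : ¬X ≤ Y := fun hle => by
  obtain ⟨x, hx, e⟩ := h.surj 1
  exact one_ne_zero (e.symm.trans (h.zero (hle hx)))

theorem sq (h : Coord ξ X Y f μ) (x : P) (hx : x ∈ X) : x * x ∈ Y :=
  (h.ker _ (X.mul_mem hx hx)).1 (by rw [h.add _ hx _ hx, CharTwo.add_self_eq_zero])

theorem norm (h : Coord ξ X Y f μ) : X ≤ N(Y) := norm_of_sq h.sq h.le le_rfl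

theorem comm (h : Coord ξ X Y f μ) (hx : x ∈ X) (hy : y ∈ X) : ⁅x, y⁆ ∈ Y :=
  comm_mem_of_sq h.sq hx hy

theorem inv_eq (h : Coord ξ X Y f μ) (hx : x ∈ X) : f x⁻¹ = f x := by
  rw [h.add.inv hx, CharTwo.neg_eq]

/-- change of coordinates -/
theorem comp (h : Coord ξ X Y f μ) (σ : F ≃+* F) {c : F} (hc : c ≠ 0) :
    Coord ξ X Y (fun x => c * σ (f x)) (σ μ) where
  inv := h.inv
  le := h.le
  add := fun x hx y hy => by simp only [h.add x hx y hy, map_add, mul_add]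
  ker := fun x hx => by simp [hc, h.ker x hx]
  surj := fun a => by
    obtain ⟨x, hx, e⟩ := h.surj (σ.symm (a / c))
    exact ⟨x, hx, by rw [e, RingEquiv.apply_symm_apply, mul_div_cancel₀ _ hc]⟩
  conj := fun x hx => by simp only [h.conj x hx, map_mul]; ring
  gen := (ord_map σ μ).trans h.gen
  ar := h.ar

end Coord

section avg
variable [Finite P]

theorem FPF.coord (hξ : FPF ξ F) (hX : XInv ξ X) {g : P → F} (hg : AddOn X g)
    (h0 : μ ≠ 0) (hc : ∀ x ∈ X, g (ξ x) = μ * g x) (hx : x ∈ X) (hx0 : g x ≠ 0) :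
    Coord ξ X hg.ker g μ := by
  have hk : ∀ (k : ℕ), ∀ x ∈ X, g ((ξ ^ k) x) = μ ^ k * g x := fun k x hx => by
    induction k with
    | zero => simp
    | succ k ih => rw [pow_succ', MulAut.mul_apply, hc _ (hX.pow k x hx), ih, pow_succ', mul_assoc]
  have hM : XInv ξ hg.ker := fun y hy => ⟨hX y hy.1, by rw [hc y hy.1, hy.2, mul_zero]⟩
  have hgen : orderOf μ = orderOf ξ := by
    refine Nat.dvd_antisymm (orderOf_dvd_of_pow_eq_one ?_) ?_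
    · have := hk (orderOf ξ) x hx
      rw [pow_orderOf_eq_one, MulAut.one_apply] at this
      exact mul_right_cancel₀ hx0 (this.symm.trans (one_mul _).symm)
    rw [orderOf_dvd_iff_pow_eq_one]
    by_contra hne
    refine hx0 (fpf_section (fun x h => (hξ.fpf _ x h).resolve_right hne) (hM.pow _)
      ⟨X.mul_mem (X.inv_mem hx) (hX.pow _ x hx), ?_⟩).2
    rw [hg _ (X.inv_mem hx) _ (hX.pow _ x hx), hg.inv hx, hk _ x hx, pow_orderOf_eq_one]; ring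
  refine ⟨hX, fun y hy => hy.1, hg, fun y hy => ⟨fun e => ⟨hy, e⟩, fun e => e.2⟩, fun a => ?_, hc, hgen, hξ.ar⟩
  exact hξ.ar.span hgen {a | ∃ w ∈ X, g w = a} ⟨1, X.one_mem, hg.one⟩ (by
    rintro _ ⟨u, hu, rfl⟩ _ ⟨v, hv, rfl⟩
    exact ⟨u * v, X.mul_mem hu hv, hg _ hu _ hv⟩) (by
    rintro _ ⟨u, hu, rfl⟩
    exact ⟨ξ u, hX u hu, hc _ hu⟩) ⟨x, hx, rfl⟩ hx0 a

theorem FPF.pow_eq (hξ : FPF ξ F) : ξ ^ (Fintype.card F - 1) = 1 :=
  orderOf_dvd_iff_pow_eq_one.1 hξ.ar.dvd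

theorem FPF.exists_coord (hξ : FPF ξ F) (hX : XInv ξ X) (hY : XInv ξ Y) (hle : Y ≤ X)
    (hsq : ∀ x ∈ X, x * x ∈ Y) (hn : ¬X ≤ Y) :
    ∃ (M : Subgroup P) (f : P → F) (μ : F), Y ≤ M ∧ Coord ξ X M f μ := by
  obtain ⟨x, hx, hxY⟩ := SetLike.not_le_iff_exists.1 hn
  obtain ⟨π, h1, h2, h3⟩ := exists_functional (F := F) hle hsq hx hxY
  obtain ⟨ν, hν, h4⟩ := exists_avg_ne (ξ := ξ) h3
  exact ⟨(avg_add hX h1).ker, _, _, fun y hy => ⟨hle hy, avg_zero hY h2 hy⟩,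
    hξ.coord hX (avg_add hX h1) (inv_ne_zero hν) (fun x _ => avg_conj hξ.pow_eq hν x) hx h4⟩

/-- an equivariant extension of a coordinate -/
theorem FPF.exists_ext (hξ : FPF ξ F) (hX : XInv ξ X) (h : Coord ξ M Y f μ) (hM : M ≤ X)
    (h0 : μ ≠ 0) (hsq : ∀ x ∈ X, x * x ∈ Y) :
    ∃ (M' : Subgroup P) (π : P → F), Coord ξ X M' π μ ∧ ∀ x ∈ M, π x = f x := by
  obtain ⟨π, h1, h2⟩ := H3.exists_ext h.le hM hsq h.add fun y hy => h.zero hy
  have h3 : ∀ x ∈ M, avg ξ π μ⁻¹ x = f x := fun x hx => by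
    rw [avg, Finset.sum_congr rfl (g := fun _ => f x) fun k _ => by
      rw [h2 _ (h.inv.pow k x hx), h.conj_pow k hx, ← mul_assoc, ← mul_pow, inv_mul_cancel₀ h0, one_pow,
        one_mul]]
    rw [Finset.sum_const, Finset.card_range, nsmul_eq_mul, Nat.cast_sub Fintype.card_pos,
      FiniteField.cast_card_eq_zero, Nat.cast_one, zero_sub, CharTwo.neg_eq, one_mul]
  obtain ⟨x, hx, e⟩ := h.surj 1
  exact ⟨_, _, hξ.coord hX (avg_add hX h1) h0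
    (fun x _ => by rw [avg_conj hξ.pow_eq (inv_ne_zero h0) x, inv_inv]) (hM hx)
    (by rw [h3 x hx, e]; exact one_ne_zero), h3⟩

/-- Maschke's theorem for a section `X / Y` of length two -/
theorem FPF.maschke (hξ : FPF ξ F) (h' : Coord ξ X M f' ν) (h : Coord ξ M Y f μ)
    (h0 : μ ≠ 0) (hsq : ∀ x ∈ X, x * x ∈ Y) :
    ∃ (M' : Subgroup P) (π : P → F), Coord ξ X M' π μ ∧ Coord ξ M' Y f' ν ∧ (∀ x ∈ M, π x = f x) ∧
      ∀ x ∈ X, ∃ m ∈ M, ∃ m' ∈ M', x = m * m' := by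
  obtain ⟨M', π, h1, h2⟩ := hξ.exists_ext h'.inv h h'.le h0 hsq
  have h3 : ∀ x ∈ X, ∃ m ∈ M, ∃ m' ∈ M', x = m * m' := fun x hx => by
    obtain ⟨m, hm, e⟩ := h.surj (π x)
    refine ⟨m, hm, m⁻¹ * x, (h1.ker _ (X.mul_mem (X.inv_mem (h'.le hm)) hx)).1 ?_, by group⟩
    rw [h1.add _ (X.inv_mem (h'.le hm)) _ hx, h1.add.inv (h'.le hm), h2 m hm, e, neg_add_cancel]
  refine ⟨M', π, h1, ⟨h1.inv', fun y hy => (h1.ker _ (h'.le (h.le hy))).1 ((h2 y (h.le hy)).trans (h.zero hy)),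
    h'.add.mono h1.le, fun x hx => ⟨fun e => ?_, fun e => h'.zero (h.le e)⟩, fun a => ?_,
    fun x hx => h'.conj x (h1.le hx), h'.gen, h'.ar⟩, h2, h3⟩
  · have hm := (h'.ker x (h1.le hx)).1 e
    exact (h.ker x hm).1 ((h2 x hm).symm.trans (h1.zero hx))
  · obtain ⟨x, hx, e⟩ := h'.surj a
    obtain ⟨m, hm, m', hm', rfl⟩ := h3 x hx
    exact ⟨m', hm', by rw [← e, h'.add _ (h'.le hm) _ (h1.le hm'), h'.zero hm, zero_add]⟩

theorem FPF.card_pow (hξ : FPF ξ F) (hP : IsPGroup 2 P) (hX : XInv ξ X) :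
    ∃ k, Nat.card X = Fintype.card F ^ k := by
  induction X using WellFoundedLT.induction with
  | ind X ih =>
    by_cases h1 : X = ⊥
    · exact ⟨0, by rw [h1, card_bot, pow_zero]⟩
    obtain ⟨M, f, μ, -, h⟩ := hξ.exists_coord hX hX.sq Sq_le (fun x => sq_mem_Sq) (not_le_Sq hP h1)
    obtain ⟨k, hk⟩ := ih M (lt_of_le_not_ge h.le h.not_le) h.inv'
    exact ⟨k + 1, by rw [h.card, hk, pow_succ, Nat.card_eq_fintype_card]⟩

end avg

/-- an equivariant biadditive map `X / Y × X' / Y' → F` of weight `l` -/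
structure Bil (ξ : MulAut P) (X Y X' Y' : Subgroup P) (g : P → P → F) (l : F) : Prop where
  add1 : ∀ y ∈ X', AddOn X (fun x => g x y)
  add2 : ∀ x ∈ X, AddOn X' (g x)
  van1 : ∀ x ∈ Y, ∀ y ∈ X', g x y = 0
  van2 : ∀ x ∈ X, ∀ y ∈ Y', g x y = 0
  conj : ∀ x ∈ X, ∀ y ∈ X', g (ξ x) (ξ y) = l * g x y

theorem Coord.transfer (h : Coord ξ X Y f μ) {α : Sort*} (g : P → α)
    (hg : ∀ y ∈ Y, ∀ x ∈ X, g (y * x) = g x) : ∃ G : F → α, ∀ x ∈ X, g x = G (f x) := by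
  choose s hs e using h.surj
  refine ⟨fun a => g (s a), fun x hx => ?_⟩
  beta_reduce
  rw [← hg _ ((h.eq_iff hx (hs _)).1 (e _).symm) _ (hs _), inv_mul_cancel_right]

theorem Bil.transfer {g : P → P → F} {l : F} (hg : Bil ξ X Y X' Y' g l) (h : Coord ξ X Y f μ)
    (h' : Coord ξ X' Y' f' ν) : ∃ B : F → F → F, (∀ x x' y, B (x + x') y = B x y + B x' y) ∧
      (∀ x y y', B x (y + y') = B x y + B x y') ∧ (∀ x y, B (μ * x) (ν * y) = l * B x y) ∧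
      ∀ x ∈ X, ∀ y ∈ X', g x y = B (f x) (f' y) := by
  choose s hs e using h.surj
  choose s' hs' e' using h'.surj
  have key : ∀ x ∈ X, ∀ y ∈ X', g x y = g (s (f x)) (s' (f' y)) := fun x hx y hy => by
    have h1 := (h.eq_iff hx (hs _)).1 (e _).symm
    have h2 := (h'.eq_iff hy (hs' _)).1 (e' _).symm
    have e1 := hg.add1 y hy _ (h.le h1) _ (hs (f x))
    have e2 := hg.add2 _ (hs (f x)) _ (h'.le h2) _ (hs' (f' y))
    simp only [inv_mul_cancel_right] at e1 e2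
    rw [e1, e2, hg.van1 _ h1 _ hy, hg.van2 _ (hs _) _ h2, zero_add, zero_add]
  refine ⟨fun a b => g (s a) (s' b), fun a a' b => ?_, fun a b b' => ?_, fun a b => ?_, key⟩
  · have := key _ (X.mul_mem (hs a) (hs a')) _ (hs' b)
    rw [h.add _ (hs a) _ (hs a'), e, e, e'] at this
    exact this.symm.trans (hg.add1 _ (hs' b) _ (hs a) _ (hs a'))
  · have := key _ (hs a) _ (X'.mul_mem (hs' b) (hs' b'))
    rw [h'.add _ (hs' b) _ (hs' b'), e, e', e'] at this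
    exact this.symm.trans (hg.add2 _ (hs a) _ (hs' b) _ (hs' b'))
  · have := key _ (h.inv _ (hs a)) _ (h'.inv _ (hs' b))
    rw [h.conj _ (hs a), h'.conj _ (hs' b), e, e'] at this
    exact this.symm.trans (hg.conj _ (hs a) _ (hs' b))

theorem Bil.mono {g : P → P → F} {l : F} (hg : Bil ξ X Y X' Y' g l) (h : Coord ξ X Y f μ)
    (h' : Coord ξ X' Y' f' ν)
    (hu : ∀ σ τ σ' τ' : F ≃+* F, σ μ * τ ν = l → σ' μ * τ' ν = l → σ = σ' ∧ τ = τ') :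
    (∀ x ∈ X, ∀ y ∈ X', g x y = 0) ∨ ∃ (b : F) (σ τ : F ≃+* F), b ≠ 0 ∧ σ μ * τ ν = l ∧
      ∀ x ∈ X, ∀ y ∈ X', g x y = b * (σ (f x) * τ (f' y)) := by
  obtain ⟨B, h1, h2, h3, h4⟩ := hg.transfer h h'
  rcases bil_mono B h1 h2 h3 hu with e | ⟨b, σ, τ, hb, hw, e⟩
  · exact Or.inl fun x hx y hy => (h4 x hx y hy).trans (e _ _)
  · exact Or.inr ⟨b, σ, τ, hb, hw, fun x hx y hy => (h4 x hx y hy).trans (e _ _)⟩

theorem Bil.quad {g : P → P → F} {l : F} (hg : Bil ξ X Y X Y g l)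
    (h : Coord ξ X Y f μ) (hl : orderOf l = orderOf ξ) {Q : P → F} (hQ : ∀ x ∈ X, ∀ y ∈ X, Q (x * y) = Q x + Q y + g x y)
    (hY : ∀ y ∈ Y, Q y = 0) (hc : ∀ x ∈ X, Q (ξ x) = l * Q x) (h0 : ∃ x ∈ X, Q x ≠ 0) :
    ∃ (c : F) (ρ₁ ρ₂ : F ≃+* F), c ≠ 0 ∧ l = ρ₁ μ * ρ₂ μ ∧ ∀ x ∈ X, Q x = c * (ρ₁ (f x) * ρ₂ (f x)) := by
  obtain ⟨B, h1, h2, -, h4⟩ := hg.transfer h h
  obtain ⟨G, hG⟩ := h.transfer Q fun y hy x hx => by
    rw [hQ _ (h.le hy) _ hx, hY y hy, hg.van1 y hy x hx, zero_add, add_zero]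
  obtain ⟨c, ρ₁, ρ₂, hc0, hl, e⟩ := h.ar.quad_weight G B (fun a b => by
    obtain ⟨x, hx, rfl⟩ := h.surj a
    obtain ⟨y, hy, rfl⟩ := h.surj b
    rw [← h.add x hx y hy, ← hG _ (X.mul_mem hx hy), ← hG x hx, ← hG y hy, ← h4 x hx y hy, hQ x hx y hy])
    h1 h2 h.gen hl (fun a => by
      obtain ⟨x, hx, rfl⟩ := h.surj a
      rw [← h.conj x hx, ← hG _ (h.inv x hx), ← hG x hx, hc x hx])
    (by obtain ⟨x, hx, e⟩ := h0; exact ⟨f x, hG x hx ▸ e⟩)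
  exact ⟨c, ρ₁, ρ₂, hc0, hl, fun x hx => (hG x hx).trans (e _)⟩

end L.Sh
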