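import Cfsg.Agent.L.Sh1
import Mathlib.NumberTheory.Basic

/-! `L.Sh.ar_of`: for `|F| = 2 ^ n = m * d + 1` with `d ∣ n`, elements of order `m` satisfy `Ar F m`. -/

set_option autoImplicit false
set_option linter.style.haveILetI false
set_option linter.unusedSectionVars false

namespace L.Sh

open H3

theorem gap {n m d : ℕ} (hm : m * d + 1 = 2 ^ n) (hw : d = 1 ∨ 3 * d < 2 ^ (n / 6)) {a b c e f ε : ℕ}
    (ha : a < n) (hb : b < n) (hc : c < n) (he : e < n) (hf : f < n) (hε : ε ≤ 1)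
    (h : ε * 2 ^ a + 2 ^ b + 2 ^ c ≡ 2 ^ e + 2 ^ f [MOD m]) :
    ε * 2 ^ a + 2 ^ b + 2 ^ c ≡ 2 ^ e + 2 ^ f [MOD m * d] := by
  rcases hw with rfl | hw
  · rwa [mul_one]
  have h6 : 6 * (n / 6) ≤ n := Nat.mul_div_le n 6
  generalize n / 6 = w at hw h6
  have hd : d ≠ 0 := by
    rintro rfl
    have : 2 ^ 1 ≤ 2 ^ n := Nat.pow_le_pow_right (by norm_num) (by omega)
    omega
  have hw0 : w ≠ 0 := by rintro rfl; omega
  obtain ⟨k, hk, h1⟩ : ∃ k < 6, a / w ≠ k ∧ b / w ≠ k ∧ c / w ≠ k ∧ e / w ≠ k ∧ f / w ≠ k := by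
    generalize a / w = a', b / w = b', c / w = c', e / w = e', f / w = f'
    by_contra hn
    push Not at hn
    have h0 := hn 0 (by norm_num)
    have h1 := hn 1 (by norm_num)
    have h2 := hn 2 (by norm_num)
    have h3 := hn 3 (by norm_num)
    have h4 := hn 4 (by norm_num)
    have h5 := hn 5 (by norm_num)
    omega
  have hkw : (k + 1) * w ≤ n := le_trans (Nat.mul_le_mul_right w (by omega)) h6
  have hone : 2 ^ n ≡ 1 [MOD m * d] := by rw [← hm]; simp [Nat.ModEq]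
  obtain ⟨u, hu⟩ : ∃ u, n = u + 1 + w := ⟨n - w - 1, by omega⟩
  have key : ∀ a < n, a / w ≠ k → ∃ a' ≤ u, 2 ^ a * 2 ^ (n - (k + 1) * w) ≡ 2 ^ a' [MOD m * d] := fun a ha h1 => by
    rcases lt_or_gt_of_ne h1 with h1 | h1
    · have := (Nat.div_lt_iff_lt_mul (Nat.pos_of_ne_zero hw0)).1 h1
      exact ⟨a + (n - (k + 1) * w), by rw [add_mul] at hkw ⊢; omega, by rw [pow_add]⟩
    · have := (Nat.le_div_iff_mul_le (Nat.pos_of_ne_zero hw0)).1 (Nat.succ_le_of_lt h1)
      rw [Nat.succ_eq_add_one] at this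
      refine ⟨a - (k + 1) * w, by rw [add_mul] at hkw this ⊢; omega, ?_⟩
      rw [← pow_add, show a + (n - (k + 1) * w) = a - (k + 1) * w + n by omega, pow_add]
      simpa using hone.mul_left (2 ^ (a - (k + 1) * w))
  obtain ⟨a', a1, a2⟩ := key a ha h1.1
  obtain ⟨b', b1, b2⟩ := key b hb h1.2.1
  obtain ⟨c', c1, c2⟩ := key c hc h1.2.2.1
  obtain ⟨e', e1, e2⟩ := key e he h1.2.2.2.1
  obtain ⟨f', f1, f2⟩ := key f hf h1.2.2.2.2
  generalize n - (k + 1) * w = s at *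
  have l1 : (ε * 2 ^ a + 2 ^ b + 2 ^ c) * 2 ^ s ≡ ε * 2 ^ a' + 2 ^ b' + 2 ^ c' [MOD m * d] := by
    rw [add_mul, add_mul, mul_assoc]; exact ((a2.mul_left ε).add b2).add c2
  have l2 : (2 ^ e + 2 ^ f) * 2 ^ s ≡ 2 ^ e' + 2 ^ f' [MOD m * d] := by rw [add_mul]; exact e2.add f2
  have l3 := (l1.of_mul_right d).symm.trans ((h.mul_right _).trans (l2.of_mul_right d))
  have bd : ∀ x ≤ u, 2 ^ x ≤ 2 ^ u := fun x hx => Nat.pow_le_pow_right (by norm_num) hx
  have hm3 : 3 * 2 ^ u < m := by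
    by_contra hn
    have h7 : m * d ≤ 3 * 2 ^ u * d := Nat.mul_le_mul_right d (not_lt.1 hn)
    rw [hu, pow_add, pow_succ] at hm
    have h8 : 0 < 2 ^ u := by positivity
    nlinarith
  have := bd _ a1; have := bd _ b1; have := bd _ c1; have := bd _ e1; have := bd _ f1
  have h9 : ε * 2 ^ a' ≤ 2 ^ a' := (Nat.mul_le_mul_right _ hε).trans_eq (one_mul _)
  have l4 := Nat.ModEq.eq_of_lt_of_lt l3 (by omega) (by omega)
  rw [l4] at l1
  refine Nat.ModEq.cancel_right_of_coprime ?_ (l1.trans l2.symm)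
  refine Nat.Coprime.pow_right _ (Nat.coprime_two_right.2 ?_)
  have : Even (m * d + 1) := by rw [hm]; exact Nat.even_pow.2 ⟨even_two, by omega⟩
  exact Nat.not_even_iff_odd.1 (Nat.even_add_one.1 this)

/-- uniqueness of a weight `2 ^ a + 2 ^ b` -/
def n2 (n m : ℕ) : Bool := (List.range n).all fun a => (List.range n).all fun b =>
  Nat.gcd m (2 ^ a + 2 ^ b) != 1 || (List.range n).all fun c => (List.range n).all fun e =>
    (2 ^ a + 2 ^ b) % m != (2 ^ c + 2 ^ e) % m || (a == c && b == e) || (a == e && b == c)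

/-- uniqueness of the solution of `2 ^ a + 2 ^ t * w ≡ w` -/
def n3 (n m : ℕ) : Bool := (List.range n).all fun e => (List.range n).all fun f =>
  Nat.gcd m (2 ^ e + 2 ^ f) != 1 || (List.range n).all fun a => (List.range n).all fun t =>
    (2 ^ a + (2 ^ e + 2 ^ f) * 2 ^ t) % m != (2 ^ e + 2 ^ f) % m || (List.range n).all fun a' =>
      (List.range n).all fun t' => (2 ^ a' + (2 ^ e + 2 ^ f) * 2 ^ t') % m != (2 ^ e + 2 ^ f) % m ||
        (a == a' && t == t')

theorem small : ((List.range 48).all fun n => (List.range 48).all fun d => n % d != 0 || (2 ^ n - 1) % d != 0 ||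
    d == 1 || decide (3 * d < 2 ^ (n / 6)) || n == 0 || (n2 n ((2 ^ n - 1) / d) && n3 n ((2 ^ n - 1) / d))) = true := by
  decide +kernel

theorem cases_nd {n m d : ℕ} (hn : 2 ≤ n) (hm : m * d + 1 = 2 ^ n) (hd : d ∣ n) :
    (d = 1 ∨ 3 * d < 2 ^ (n / 6)) ∨ (n2 n m = true ∧ n3 n m = true) := by
  have hdn := Nat.le_of_dvd (by omega) hd
  by_cases h : n < 48
  · have := small
    simp only [List.all_eq_true, List.mem_range, Bool.or_eq_true, bne_iff_ne, beq_iff_eq, decide_eq_true_eq,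
      Bool.and_eq_true] at this
    have e : 2 ^ n - 1 = m * d := by omega
    have hd0 : 0 < d := Nat.pos_of_dvd_of_pos hd (by omega)
    have := this n h d (by omega)
    rw [e, Nat.mul_div_cancel _ hd0, Nat.mod_eq_zero_of_dvd hd, Nat.mul_mod_left] at this
    rcases this with ((((h | h) | h) | h) | h) | h
    exacts [(h rfl).elim, (h rfl).elim, Or.inl (Or.inl h), Or.inl (Or.inr h), by omega, Or.inr h]
  · refine Or.inl (Or.inr ?_)
    have : ∀ w, 8 ≤ w → 18 * w + 15 < 2 ^ w := fun w hw => by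
      induction w, hw using Nat.le_induction with
      | base => norm_num
      | succ w _ ih => rw [pow_succ]; omega
    have := this (n / 6) (by omega)
    omega

theorem lt_m {n m d : ℕ} (hn : 2 ≤ n) (hm : m * d + 1 = 2 ^ n) (hd : d ∣ n) : n < m := by
  have hdn := Nat.le_of_dvd (by omega) hd
  by_contra h
  have h1 : m * d ≤ n * n := Nat.mul_le_mul (not_lt.1 h) hdn
  have : ∀ w, 5 ≤ w → w * w + 1 < 2 ^ w := fun w hw => by
    induction w, hw using Nat.le_induction with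
    | base => norm_num
    | succ w _ ih => rw [pow_succ]; nlinarith
  by_cases h5 : 5 ≤ n
  · have := this n h5; omega
  · have : n < 5 := by omega
    interval_cases n <;> interval_cases d <;> omega

theorem prime_m {n m d : ℕ} (hn : 2 ≤ n) (hm : m * d + 1 = 2 ^ n) (hd : d ∣ n) {p : ℕ} (hp : p.Prime)
    (h : p ∣ m * d) : p ∣ m := by
  by_contra hpm
  haveI := Fact.mk hp
  have e : ((m * d : ℕ) : ℤ) = 2 ^ n - 1 := by
    have : ((m * d + 1 : ℕ) : ℤ) = ((2 ^ n : ℕ) : ℤ) := by rw [hm]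
    push_cast at this ⊢; linarith
  have key : ∀ v, p ^ v ∣ m * d := fun v => by
    induction v with
    | zero => simp
    | succ v ih =>
      obtain ⟨k, hk⟩ := ((Nat.Coprime.pow_left v ((Nat.Prime.coprime_iff_not_dvd hp).2 hpm)).dvd_of_dvd_mul_left
        ih).trans hd
      have h1 : (p : ℤ) ∣ 2 ^ k - 1 := by
        have h2 : (p : ℤ) ∣ 2 ^ n - 1 := e ▸ Int.natCast_dvd_natCast.2 h
        rw [← ZMod.intCast_zmod_eq_zero_iff_dvd] at h2 ⊢
        push_cast at h2 ⊢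
        rwa [hk, mul_comm, pow_mul, ZMod.pow_card_pow] at h2
      have h3 := dvd_sub_pow_of_dvd_sub h1 v
      rw [one_pow, ← pow_mul, mul_comm, ← hk, ← e] at h3
      exact_mod_cast h3
  have h1 := lt_m hn hm hd
  have h2 : 0 < m * d := Nat.mul_pos (by omega) (Nat.pos_of_dvd_of_pos hd (by omega))
  exact absurd (Nat.le_of_dvd h2 (key (m * d))) (not_le.2 (Nat.lt_pow_self hp.one_lt))

variable {F : Type*} [Field F] [Fintype F] [CharP F 2] {n m d : ℕ}

theorem aut_exp (hq : Fintype.card F = 2 ^ n) (hn : 2 ≤ n) (σ : F ≃+* F) : ∃ a < n, ∀ x, σ x = x ^ 2 ^ a := by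
  obtain ⟨k, hk⟩ := H25.exists_eq_pow 2 σ
  refine ⟨k % n, Nat.mod_lt _ (by omega), fun x => (hk x).trans ?_⟩
  conv_lhs => rw [← Nat.div_add_mod k n, pow_add, pow_mul, pow_mul, ← hq, FiniteField.pow_card_pow]

theorem ar_of (hq : Fintype.card F = 2 ^ n) (hn : 2 ≤ n) (hm : m * d + 1 = 2 ^ n) (hd : d ∣ n) : Ar F m := by
  have e : Fintype.card F - 1 = m * d := by omega
  have hlt := lt_m hn hm hd
  have fin : ∀ μ : F, orderOf μ = m → IsOfFinOrder μ := fun μ h => orderOf_pos_iff.1 (by omega)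
  have up : ∀ {A B : ℕ}, A ≡ B [MOD m * d] → A ≠ 0 → B ≠ 0 → ∀ x : F, x ^ A = x ^ B := fun {A B} h hA hB x => by
    by_cases h0 : x = 0
    · rw [h0, zero_pow hA, zero_pow hB]
    · exact pow_eq_pow_of_modEq h (e ▸ FiniteField.pow_card_sub_one_eq_one x h0)
  have cop : ∀ (μ : F) (w : ℕ), orderOf μ = m → orderOf (μ ^ w) = m → Nat.gcd m w = 1 := fun μ w h1 h2 => by
    rw [(fin μ h1).orderOf_pow, h1, Nat.div_eq_self] at h2
    omega
  have h4 : ∃ a : F, a ≠ 0 ∧ a ≠ 1 := by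
    classical
    by_contra hn'
    push Not at hn'
    have : (Finset.univ : Finset F) ⊆ {0, 1} := fun a _ => by
      by_cases h : a = 0
      · simp [h]
      · simp [hn' a h]
    have h1 := (Finset.card_le_card this).trans Finset.card_le_two
    rw [Finset.card_univ, hq] at h1
    have : 2 ^ 2 ≤ 2 ^ n := Nat.pow_le_pow_right (by norm_num) hn
    omega
  refine ⟨⟨d, e⟩, by rw [hq]; exact Nat.pow_lt_pow_right (by norm_num) hlt, ?_, ?_,
    fun p hp h => prime_m hn hm hd hp (e ▸ h)⟩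
  · intro μ l hμ hl σ₁ σ₂ τ₁ τ₂ e1 e2
    obtain ⟨a, ha, a1⟩ := aut_exp hq hn σ₁
    obtain ⟨b, hb, b1⟩ := aut_exp hq hn σ₂
    obtain ⟨c, hc, c1⟩ := aut_exp hq hn τ₁
    obtain ⟨f, hf, f1⟩ := aut_exp hq hn τ₂
    rw [a1, b1, ← pow_add] at e1
    rw [e1, c1, f1, ← pow_add, (fin μ hμ).pow_eq_pow_iff_modEq, hμ] at e2
    rcases cases_nd hn hm hd with hw | ⟨h2, -⟩
    · have := up (gap hm hw (ε := 0) ha ha hb hc hf zero_le_one (by simpa using e2)) (by positivity) (by positivity)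
      have k : ∀ x, σ₁ x * σ₂ x = τ₁ x * τ₂ x := fun x => by
        rw [a1, b1, c1, f1, ← pow_add, ← pow_add, ← this, zero_mul, zero_add]
      by_cases h1 : σ₁ = σ₂
      · by_cases h2 : τ₁ = τ₂
        · subst h1 h2
          exact Or.inl ⟨RingEquiv.ext fun x => sq_inj (k x), RingEquiv.ext fun x => sq_inj (k x)⟩
        · rcases rel2 (fun x => (k x).symm) h2 with h | h
          exacts [Or.inl ⟨h.1.symm, h.2.symm⟩, Or.inr ⟨h.2.symm, h.1.symm⟩]
      · exact rel2 k h1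
    · simp only [n2, List.all_eq_true, List.mem_range, Bool.or_eq_true, bne_iff_ne, beq_iff_eq,
        Bool.and_eq_true] at h2
      rcases ((h2 a ha b hb).resolve_left (not_not.2 (cop μ _ hμ (e1 ▸ hl)))) c hc f hf with (h | h) | h
      · exact (h e2).elim
      · exact Or.inl ⟨RingEquiv.ext fun x => by rw [a1, c1, h.1], RingEquiv.ext fun x => by rw [b1, f1, h.2]⟩
      · exact Or.inr ⟨RingEquiv.ext fun x => by rw [a1, f1, h.1], RingEquiv.ext fun x => by rw [b1, c1, h.2]⟩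
  · intro μ l hμ hl ρ₁ ρ₂ e0 σ τ σ' τ' e1 e2
    obtain ⟨c, hc, c1⟩ := aut_exp hq hn ρ₁
    obtain ⟨f, hf, f1⟩ := aut_exp hq hn ρ₂
    rcases cases_nd hn hm hd with hw | ⟨-, h3⟩
    · obtain ⟨g, hg⟩ := IsCyclic.exists_generator (α := Fˣ)
      have hG : Gen (g : F) := fun x hx => by
        obtain ⟨k, hk⟩ := (mem_powers_iff_mem_zpowers (x := g) (y := Units.mk0 x hx)).2 (hg _)
        exact ⟨k, by simpa using congrArg Units.val hk⟩
      have key : ∀ σ τ : F ≃+* F, σ μ * τ l = l → σ g * τ (ρ₁ g * ρ₂ g) = ρ₁ g * ρ₂ g := fun σ τ e1 => by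
        obtain ⟨a, ha, a1⟩ := aut_exp hq hn σ
        obtain ⟨b, hb, b1⟩ := aut_exp hq hn (τ * ρ₁)
        obtain ⟨b', hb', b2⟩ := aut_exp hq hn (τ * ρ₂)
        simp only [RingAut.mul_apply] at b1 b2
        rw [e0, map_mul, b1, b2, a1, c1, f1, ← pow_add, ← pow_add, ← pow_add, (fin μ hμ).pow_eq_pow_iff_modEq,
          hμ] at e1
        have := up (gap hm hw (ε := 1) ha hb hb' hc hf le_rfl (by rwa [one_mul, add_assoc])) (by positivity)
          (by positivity) g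
        rw [map_mul, b1, b2, a1, c1, f1, ← pow_add, ← pow_add, ← pow_add, ← this, one_mul, add_assoc]
      exact nt1 h4 hG rfl σ τ σ' τ' (key _ _ e1) (key _ _ e2)
    · obtain ⟨a, ha, a1⟩ := aut_exp hq hn σ
      obtain ⟨t, ht, t1⟩ := aut_exp hq hn τ
      obtain ⟨a', ha', a2⟩ := aut_exp hq hn σ'
      obtain ⟨t', ht', t2⟩ := aut_exp hq hn τ'
      rw [c1, f1, ← pow_add] at e0
      rw [a1, t1, e0, ← pow_mul, ← pow_add, (fin μ hμ).pow_eq_pow_iff_modEq, hμ] at e1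
      rw [a2, t2, e0, ← pow_mul, ← pow_add, (fin μ hμ).pow_eq_pow_iff_modEq, hμ] at e2
      simp only [n3, List.all_eq_true, List.mem_range, Bool.or_eq_true, bne_iff_ne, beq_iff_eq,
        Bool.and_eq_true] at h3
      have h := ((((h3 c hc f hf).resolve_left (not_not.2 (cop μ _ hμ (e0 ▸ hl)))) a ha t ht).resolve_left
        (not_not.2 e1) a' ha' t' ht').resolve_left (not_not.2 e2)
      exact ⟨RingEquiv.ext fun x => by rw [a1, a2, h.1], RingEquiv.ext fun x => by rw [t1, t2, h.2]⟩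

end L.Sh
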