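import Cfsg.Agent.L.Sh3
import Cfsg.Agent.L.Sh4
import Cfsg.Agent.H3.Suz4
import Cfsg.Agent.H3.PGrpBasic
import Cfsg.Agent.S3360

/-! Shaw's theorem: a non-abelian 2-group with more than one involution and a solvable group of automorphisms
transitive on the involutions is special with centre the set of involutions. -/

set_option autoImplicit false
set_option linter.style.haveILetI false
set_option linter.unusedSectionVars false

namespace L.Sh

open Subgroup H18
open H3 hiding Coord FPF Bil Suz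
open scoped commutatorElement

variable {P : Type*} [Group P] [Finite P] {Z : Subgroup P}

theorem exists_semi (hP : IsPGroup 2 P) (hZ : ∀ x, x ∈ Z ↔ x * x = 1) (hc : ∀ a ∈ Z, ∀ x, x * a = a * x)
    (Y : Subgroup (MulAut P)) (hY : Group.IsSolvable Y)
    (htr : ∀ x y : P, x ≠ 1 → x * x = 1 → y ≠ 1 → y * y = 1 → ∃ a ∈ Y, a x = y) (hnt : Z ≠ ⊥) :
    ∃ (F : Type) (_ : Field F) (_ : Fintype F) (z : P → F), Fintype.card F = Nat.card Z ∧ AddOn Z z ∧
      (∀ x ∈ Z, z x = 0 ↔ x = 1) ∧ (∀ a, ∃ x ∈ Z, z x = a) ∧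
      ∀ y : Y, ∃ (a : F) (σ : F ≃+* F), ∀ x ∈ Z, z (y.1 x) = a * σ (z x) := by
  classical
  haveI : Finite (MulAut P) := Finite.of_injective (fun σ : MulAut P => (σ : P → P)) DFunLike.coe_injective
  letI : CommGroup Z := { (inferInstance : Group Z) with mul_comm := fun a b => Subtype.ext (hc b b.2 a) }
  letI : Module (ZMod 2) (Additive Z) := AddCommGroup.zmodModule fun x => by
    rw [two_nsmul]; exact Subtype.ext ((hZ _).1 x.toMul.2)
  haveI : Nontrivial Z := Z.nontrivial_iff_ne_bot.2 hnt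
  have hi : ∀ (y : MulAut P), ∀ a ∈ Z, y a ∈ Z := fun y a ha => (hZ _).2 (by rw [← map_mul, (hZ a).1 ha, map_one])
  let e0 : MulAut P → (Additive Z ≃+ Additive Z) := fun y =>
    { toFun := fun v => Additive.ofMul ⟨y v.toMul, hi y _ v.toMul.2⟩
      invFun := fun v => Additive.ofMul ⟨y.symm v.toMul, hi y.symm _ v.toMul.2⟩
      left_inv := fun v => Subtype.ext (y.symm_apply_apply _)
      right_inv := fun v => Subtype.ext (y.apply_symm_apply _)
      map_add' := fun v w => Subtype.ext (map_mul y _ _) }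
  let ρ : Y →* (Additive Z ≃ₗ[ZMod 2] Additive Z) := MonoidHom.mk'
    (fun y => (e0 y.1).toLinearEquiv (ZMod.map_smul (e0 y.1))) fun y y' => LinearEquiv.ext fun v => rfl
  haveI := hY
  haveI : Finite ρ.range := Finite.of_surjective _ ρ.rangeRestrict_surjective
  rcases Cfsg.Agent.S3360.result 2 (Group.isSolvable_of_surjective ρ.rangeRestrict_surjective) ρ.range.subtype
    ρ.range.subtype_injective (fun v w hv hw => by
      obtain ⟨a, ha, e⟩ := htr v.toMul w.toMul (fun e => hv (Subtype.ext e)) ((hZ _).1 v.toMul.2)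
        (fun e => hw (Subtype.ext e)) ((hZ _).1 w.toMul.2)
      exact ⟨⟨ρ ⟨a, ha⟩, _, rfl⟩, Subtype.ext e⟩) with ⟨F, _, _, e, he⟩ | h
  · refine ⟨F, inferInstance, inferInstance, fun x => if h : x ∈ Z then e (Additive.ofMul ⟨x, h⟩) else 0,
      by rw [← Nat.card_eq_fintype_card, ← Nat.card_congr e.toEquiv]; rfl, fun x hx y hy => ?_, fun x hx => ?_,
      fun a => ⟨_, (e.symm a).toMul.2, ?_⟩, fun y => ?_⟩
    · simp only [dif_pos hx, dif_pos hy, dif_pos (mul_mem hx hy), ← map_add]; rfl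
    · simp only [dif_pos hx, map_eq_zero_iff e e.injective]
      exact ⟨fun h => congrArg Subtype.val (show (⟨x, hx⟩ : Z) = 1 from h), fun h => Subtype.ext h⟩
    · simp only [dif_pos (e.symm a).toMul.2]
      exact e.apply_symm_apply a
    · obtain ⟨a, σ, h⟩ := he ⟨ρ y, _, rfl⟩
      refine ⟨a, σ, fun x hx => ?_⟩
      simp only [dif_pos hx, dif_pos (hi y.1 x hx)]
      exact h (Additive.ofMul ⟨x, hx⟩)
  · exfalso
    obtain ⟨n, hn⟩ := (hP.to_subgroup Z).exists_card_eq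
    have h1 : Nat.card (Additive Z) = 2 ^ n := hn
    have h2 : 1 < Nat.card Z := Finite.one_lt_card
    rcases n with _ | n
    · omega
    · rw [h1, pow_succ] at h
      simp only [Set.mem_insert_iff, Set.mem_singleton_iff] at h
      omega

theorem exists_suz (hP : IsPGroup 2 P) (hZ : ∀ x, x ∈ Z ↔ x * x = 1) (hc : ∀ a ∈ Z, ∀ x, x * a = a * x)
    (Y : Subgroup (MulAut P)) (hY : Group.IsSolvable Y)
    (htr : ∀ x y : P, x ≠ 1 → x * x = 1 → y ≠ 1 → y * y = 1 → ∃ a ∈ Y, a x = y) (h3 : 2 < Nat.card Z)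
    (ker : ∀ r : ℕ, r.Prime → r ∣ Nat.card Z - 1 → ∀ η ∈ Y, η ^ r = 1 → (∀ a ∈ Z, η a = a) → η = 1) :
    ∃ (F : Type) (_ : Field F) (_ : Fintype F) (_ : CharP F 2) (ξ : MulAut P) (z : P → F) (l : F),
      Suz ξ Z z l := by
  classical
  haveI : Finite (MulAut P) := Finite.of_injective (fun σ : MulAut P => (σ : P → P)) DFunLike.coe_injective
  obtain ⟨F, _, _, z, hq, za, zk, zs, hs⟩ := exists_semi hP hZ hc Y hY htr (by rintro rfl; simp at h3)
  obtain ⟨n, hn⟩ := (hP.to_subgroup Z).exists_card_eq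
  have hn2 : 2 ≤ n := by
    by_contra h
    have : 2 ^ n ≤ 2 ^ 1 := Nat.pow_le_pow_right (by norm_num) (by omega)
    omega
  haveI : CharP F 2 := H25.charP_of_card (hq.trans hn)
  have hi : ∀ (y : MulAut P), ∀ a ∈ Z, y a ∈ Z := fun y a ha => (hZ _).2 (by rw [← map_mul, (hZ a).1 ha, map_one])
  have zi : ∀ x ∈ Z, ∀ y ∈ Z, z x = z y → x = y := fun x hx y hy e =>
    mul_inv_eq_one.1 ((zk _ (mul_mem hx (inv_mem hy))).1 (by rw [za _ hx _ (inv_mem hy), za.inv hy, e, add_neg_cancel]))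
  choose a σ hs using hs
  obtain ⟨x₁, hx₁, e₁⟩ := zs 1
  have x1 : x₁ ≠ 1 := fun e => one_ne_zero (e₁.symm.trans ((zk _ hx₁).2 e))
  have ha : ∀ y, a y = z (y.1 x₁) := fun y => by rw [hs y _ hx₁, e₁, map_one, mul_one]
  have a0 : ∀ y, a y ≠ 0 := fun y e => x1 (by simpa using (zk _ (hi y.1 _ hx₁)).1 ((ha y).symm.trans e))
  have am : ∀ y y', a (y * y') = a y * σ y (a y') := fun y y' => by
    rw [ha, ha y', ← hs y _ (hi _ _ hx₁)]; rfl
  let δ : Y →* (F ≃+* F) := MonoidHom.mk' σ fun y y' => RingEquiv.ext fun t => by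
    obtain ⟨x, hx, rfl⟩ := zs t
    have := hs (y * y') x hx
    rw [show (y * y').1 x = y.1 (y'.1 x) from rfl, hs y _ (hi _ _ hx), hs y' x hx, am, map_mul, mul_assoc] at this
    exact (mul_left_cancel₀ ((map_ne_zero _).2 (a0 y')) (mul_left_cancel₀ (a0 y) this)).symm
  have hδ : ∀ y : δ.ker, ∀ t, σ y.1 t = t := fun y t => DFunLike.congr_fun (show σ y.1 = 1 from y.2) t
  let χ : δ.ker →* Fˣ := MonoidHom.mk' (fun y => Units.mk0 (a y.1) (a0 _)) fun y y' => Units.ext (by
    show a (y.1 * y'.1) = a y.1 * a y'.1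
    rw [am, hδ])
  have hχ : ∀ y : δ.ker, ∀ x ∈ Z, z (y.1.1 x) = χ y * z x := fun y x hx => by rw [hs _ x hx, hδ]; rfl
  have cop : Nat.Coprime (Nat.card χ.ker) (Nat.card Z - 1) := Nat.coprime_of_dvd fun r hr h1 h2 => by
    haveI := Fact.mk hr
    obtain ⟨η, hη⟩ := exists_prime_orderOf_dvd_card' r h1
    have h4 : orderOf η.1.1.1 = r := by rw [orderOf_coe, orderOf_coe, orderOf_coe, hη]
    have := ker r hr h2 η.1.1.1 η.1.1.2 (h4 ▸ pow_orderOf_eq_one _) fun x hx => zi _ (hi _ _ hx) _ hx (by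
      rw [hχ _ x hx, show χ η.1 = 1 from η.2, Units.val_one, one_mul])
    rw [this, orderOf_one] at h4
    exact hr.one_lt.ne h4
  obtain ⟨d, hd⟩ : Nat.card χ.range ∣ Nat.card Z - 1 := by
    have := card_subgroup_dvd_card χ.range
    rwa [Nat.card_units, Nat.card_eq_fintype_card (α := F), hq] at this
  have hdn : d ∣ n := by
    have h1 : (MulAction.stabilizer Y x₁).index = Nat.card Z - 1 := by
      rw [MulAction.index_stabilizer, show MulAction.orbit Y x₁ = (Z : Set P) \ {1} from ?_,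
        Set.ncard_sdiff_singleton_of_mem Z.one_mem]
      · rfl
      · ext x
        refine ⟨?_, fun hx => ?_⟩
        · rintro ⟨y, rfl⟩
          exact ⟨hi y.1 _ hx₁, fun e => x1 (by simpa using (show y.1 x₁ = 1 from e))⟩
        · obtain ⟨y, hy, e⟩ := htr x₁ x x1 ((hZ _).1 hx₁) hx.2 ((hZ _).1 hx.1)
          exact ⟨⟨y, hy⟩, e⟩
    have h2 : (MulAction.stabilizer Y x₁).subgroupOf δ.ker = χ.ker := by
      ext y
      refine ⟨fun h => Units.ext ?_, fun h => zi _ (hi _ _ hx₁) _ hx₁ ?_⟩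
      · exact (ha y.1).trans ((congrArg z (show y.1.1 x₁ = x₁ from h)).trans e₁)
      · exact (hχ y _ hx₁).trans (by rw [show χ y = 1 from h, Units.val_one, one_mul])
    have h4 := relIndex_mul_index (inf_le_left (a := MulAction.stabilizer Y x₁) (b := δ.ker))
    rw [← relIndex_mul_index (inf_le_right (a := MulAction.stabilizer Y x₁) (b := δ.ker)), inf_relIndex_right,
      h1, hd, relIndex.eq_def (MulAction.stabilizer Y x₁), h2, index_ker, index_ker, mul_left_comm] at h4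
    rw [← H25.card_ringAut (hq.trans hn)]
    exact (Dvd.intro_left _ (Nat.eq_of_mul_eq_mul_left Nat.card_pos h4)).trans (card_subgroup_dvd_card δ.range)
  have A : Ar F (Nat.card χ.range) := ar_of (hq.trans hn) hn2 (by rw [← hd, ← hn]; omega) hdn
  obtain ⟨⟨u, y₀, rfl⟩, hu⟩ := IsCyclic.exists_generator (α := χ.range)
  have o1 : orderOf (χ y₀) = Nat.card χ.range := by
    rw [← orderOf_eq_card_of_forall_mem_zpowers hu, ← orderOf_coe]
  have o2 : orderOf (χ (y₀ ^ Nat.card χ.ker)) = Nat.card χ.range := by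
    rw [map_pow, Nat.Coprime.orderOf_pow, o1]
    rw [o1]; exact (Nat.Coprime.coprime_dvd_right ⟨d, hd⟩ cop).symm
  have o3 : orderOf (y₀ ^ Nat.card χ.ker) = Nat.card χ.range := by
    refine Nat.dvd_antisymm (orderOf_dvd_of_pow_eq_one ?_) (o2 ▸ orderOf_map_dvd χ _)
    have h1 : y₀ ^ Nat.card χ.range ∈ χ.ker := by rw [MonoidHom.mem_ker, map_pow, ← o1, pow_orderOf_eq_one]
    rw [← pow_mul, mul_comm, pow_mul]
    exact congrArg Subtype.val (pow_card_eq_one' (x := (⟨_, h1⟩ : χ.ker)))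
  generalize y₀ ^ Nat.card χ.ker = w at o2 o3
  have o4 : orderOf w.1.1 = Nat.card χ.range := by rw [orderOf_coe, orderOf_coe, o3]
  have o5 : orderOf (χ w : F) = Nat.card χ.range := by rw [orderOf_units, o2]
  have co : Coord w.1.1 Z ⊥ z (χ w) := ⟨hi _, bot_le, za, zk, zs, hχ w, o5.trans o4.symm, o4 ▸ A⟩
  refine ⟨F, _, _, inferInstance, w.1.1, z, χ w, hP, hZ, hc, co, ⟨o4 ▸ A, fun k x hx => ?_⟩,
    χ w, A.ne0 o5, A.ne1 o5⟩
  by_cases h1 : x = 1
  · exact Or.inl h1
  obtain ⟨b, hb, b1, b2⟩ := exists_invol hP (X := zpowers x) (by simpa using h1)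
  obtain ⟨j, rfl⟩ := mem_zpowers_iff.1 hb
  have := co.conj_pow k ((hZ _).2 b2)
  rw [map_zpow, hx] at this
  refine Or.inr (orderOf_dvd_iff_pow_eq_one.1 ?_)
  rw [o4, ← o5, orderOf_dvd_iff_pow_eq_one]
  exact mul_right_cancel₀ (fun e => b1 ((zk _ ((hZ _).2 b2)).1 e)) (this.symm.trans (one_mul _).symm)

theorem Suz.special {F : Type*} [Field F] [Fintype F] [CharP F 2] {ξ : MulAut P} {z : P → F} {l : F}
    (S : Suz ξ Z z l) (hn : ¬Abel (⊤ : Subgroup P)) : commutator P = Z ∧ frattini P = Z ∧ center P = Z := by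
  haveI : Fact (Nat.Prime 2) := ⟨Nat.prime_two⟩
  have h1 := (S.main xinv_top hn).1
  have h2 : commutator P ≤ Z := commutator_le.2 fun x hx y hy => comm_mem_of_sq h1 hx hy
  have h3 : Z ≤ commutator P := S.Z_le_of_ne (xinv_top.comm xinv_top) fun e => hn (cent_iff.2 fun x hx y hy =>
    commutatorElement_eq_one_iff_mul_comm.1 (mem_bot.1 (e ▸ commutator_mem_commutator hx hy)))
  refine ⟨le_antisymm h2 h3, le_antisymm (frattini_le_of_commutator_le_of_pow_mem (p := 2) h2 fun x => by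
    rw [pow_two]; exact h1 x (mem_top x)) (h3.trans (commutator_le_frattini S.pg)), ?_⟩
  refine le_antisymm (le_trans (fun x hx => ?_) (S.cent_le_Z xinv_top hn h1))
    fun a ha => mem_center_iff.2 (S.cent a ha)
  exact ⟨mem_top x, mem_C.2 fun y _ => mem_center_iff.1 hx y⟩

end L.Sh
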