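import Cfsg.Agent.L.WU62

/-! The three classes of subgroups `U₄(3)` in `U₆(2)`. -/

set_option autoImplicit false

namespace L
open Cfsg

theorem u62 {G Ω X : Type*} [Group G] [Finite G] [MulAction G Ω] [Group X] (M : H14.PM G Ω 693 H15.StdU62.nets)
    (hN : Nat.card G = 9196830720) (U : H15.StdU43.St X) : ∃ A B C : Subgroup G,
      (Nonempty (A ≃* X) ∧ Nonempty (B ≃* X) ∧ Nonempty (C ≃* X)) ∧
      ((∀ g, ¬ CjA g A B) ∧ (∀ g, ¬ CjA g A C) ∧ ∀ g, ¬ CjA g B C) ∧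
      ∀ K : Subgroup G, Nonempty (K ≃* X) → ∃ g, CjA g K A ∨ CjA g K B ∨ CjA g K C := by
  obtain ⟨T⟩ := H15.StdSym6.std
  have ia := (L.WU62.iaqs_ M hN (L.Pres.of fun _ _ => H15.StdU43.hom U)).iso_bot U.card (L.WU62.lowa M hN) U.ne
  have ib := (L.WU62.ibqs_ M hN (L.Pres.of fun _ _ => H15.StdU43.hom U)).iso_bot U.card (L.WU62.lowb M hN) U.ne
  have ic := (L.WU62.icqs_ M hN (L.Pres.of fun _ _ => H15.StdU43.hom U)).iso_bot U.card (L.WU62.lowc M hN) U.ne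
  have ap : ∀ us vs, H14.sub M.gen (List.append us vs) = H14.sub M.gen us ⊔ H14.sub M.gen vs := H14.sub_append _
  have m1 : ∀ u, H14.ev M.gen u ∈ H14.sub M.gen [u] := fun _ => H14.ev_mem_sub _ List.mem_cons_self
  have nq := L.WU62.nq M hN
  have ea := L.WU62.eqa M hN
  have eb := L.WU62.eqb M hN
  have ec := L.WU62.eqc M hN
  have oc := L.WU62.ocv M hN
  have nb := L.WU62.nb M hN
  have zp : H14.sub M.gen L.WU62.zs ≤ H14.sub M.gen (List.append L.WU62.zs [L.WU62.y]) := le_sup_left.trans (ap _ _).ge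
  have yp : H14.ev M.gen L.WU62.y ∈ H14.sub M.gen (List.append L.WU62.zs [L.WU62.y]) :=
    (ap _ _).ge (Subgroup.mem_sup_right (m1 _))
  have hp : ∀ {K}, H14.sub M.gen L.WU62.zs ≤ K → H14.ev M.gen L.WU62.y ∈ K →
      H14.sub M.gen (List.append L.WU62.zs [L.WU62.y]) ≤ K := fun h k =>
    L.sub_app_le h ((H14.sub_le _).2 (List.forall_mem_singleton.2 k))
  have lo := L.WU62.lowas M hN
  have qp := L.sub_app_le zp (L.WU62.wp M hN)
  rw [ap] at nq ea eb ec oc nb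
  generalize H14.sub M.gen (List.append L.WU62.zs [L.WU62.y]) = P at *
  have key : ∀ K, P ≤ K → ∀ g ∈ K, g ∈ Subgroup.normalizer (H14.sub M.gen [L.WU62.x] : Set _) →
      g ∈ P ⊔ H14.sub M.gen [L.WU62.s] ∨ ∃ u ∈ [L.WU62.ua, L.WU62.ub, L.WU62.uc], H14.ev M.gen u ∈ K := fun K h g hg hx => by
    obtain ⟨t, ht, k, hk, rfl⟩ := L.WU62.cov M hN g ((L.WU62.eq2 M hN).1 ▸ hx)
    rcases List.mem_cons.1 ht with rfl | ht
    · exact .inl (mul_mem (one_mem _) (Subgroup.mem_sup_left (qp hk)))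
    rcases List.mem_cons.1 ht with rfl | ht
    · exact .inl (mul_mem (Subgroup.mem_sup_right (m1 _)) (Subgroup.mem_sup_left (qp hk)))
    obtain ⟨u, hu, e⟩ := L.WU62.tu M hN t ht
    exact .inr ⟨u, hu, L.sub_app_le (us := [t]) ((H14.sub_le _).2 (List.forall_mem_singleton.2
      ((mul_mem_cancel_right (h (qp hk))).1 hg))) (qp.trans h) e⟩
  have nA := L.ocv_nrm oc (L.nc_three (L.WU62.fc0 M hN) (L.WU62.fc1 M hN) (L.WU62.fc2 M hN) (by decide)) nq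
    (L.WU62.xq M hN) fun g hg => (key _ (le_sup_left.trans nq) g hg.2 hg.1).resolve_right (by
      simpa using ⟨L.WU62.nnua M hN, L.WU62.nnub M hN, L.WU62.nnuc M hN⟩)
  have cN := (Subgroup.card_le_of_le (nA.le.trans nb)).trans ((L.WU62.jqs_ M hN (L.Pres.of fun _ _ => H15.StdSym6.hom T)).card_le
    (L.WU62.qb M hN) (L.WU62.bq M hN) T.card (L.WU62.qc M hN).le T.ne)
  have fu : L.FU (H14.sub M.gen L.WU62.ha) _ _ P _ (H14.ev M.gen L.WU62.ua) :=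
    ⟨⟨ea ▸ zp.trans le_sup_left, ea ▸ le_sup_left, L.sub_drop_le _ _ _, L.WU62.xz M hN, ea ▸ Subgroup.mem_sup_right (m1 _)⟩,
      ⟨L.WU62.zc M hN, L.WU62.qc M hN, L.card_single (L.WU62.ord M hN), lo⟩, L.WU62.el M hN,
      fun b hb => L.cjA_self.2 (nq (Subgroup.mem_sup_left hb)), L.WU62.xc M hN, L.cjA_self.2 (L.WU62.ux M hN (m1 _)),
      fun h => L.WU62.nnua M hN (L.cjA_self.1 h)⟩
  have nc : ∀ {hs H u}, H14.sub M.gen hs = P ⊔ H → H14.sub M.gen [L.WU62.s] ≤ Subgroup.normalizer (H14.sub M.gen hs : Set _) →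
      H14.ev M.gen u ∉ H14.sub M.gen hs → ∀ {ks}, H14.sub M.gen ks = P ⊔ H14.sub M.gen [u] → Nonempty (H14.sub M.gen ks ≃* X) →
      ∀ g, ¬ L.CjA g (H14.sub M.gen hs) (H14.sub M.gen ks) := fun e n m _ e' i g c =>
    m (L.nc_syl (by norm_num) (L.card_iso i U.card) (by norm_num) (L.WU62.zc M hN) (L.WU62.maxEA M hN)
      (e ▸ zp.trans le_sup_left) (e' ▸ zp.trans le_sup_left)
      (nA ▸ sup_le ((e ▸ le_sup_left : P ≤ _).trans Subgroup.le_normalizer) n) c ▸ e' ▸ Subgroup.mem_sup_right (m1 _))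
  refine ⟨_, _, _, ⟨ia, ib, ic⟩, ⟨nc ea (L.WU62.nsa M hN) (L.WU62.nmab M hN) eb ib,
    nc ea (L.WU62.nsa M hN) (L.WU62.nmac M hN) ec ic, nc eb (L.WU62.nsb M hN) (L.WU62.nmbc M hN) ec ic⟩, fun K ⟨j⟩ => ?_⟩
  obtain ⟨_, _, _, _, _, f⟩ := fu.iso (ia.some.trans j.symm)
  obtain ⟨d, R, c1, c2, c3, g, c4, c5, c6⟩ := f.cls hN (by norm_num) (L.WU62.zc M hN) (L.WU62.maxEA M hN) (L.WU62.qc M hN)
    (L.WU62.cen M hN) (L.WU62.xc M hN) (L.card_single (L.WU62.ord M hN)) cN (nq (Subgroup.mem_sup_left yp)) (L.WU62.y5 M hN)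
  have cR : Nat.card R = 3265920 := c1 ▸ (L.card_map_conj _ _).trans (L.card_iso ⟨j⟩ U.card)
  have fin : ∀ {hs u}, H14.sub M.gen hs = P ⊔ H14.sub M.gen [u] → 3265920 ≤ Nat.card (H14.sub M.gen hs) → H14.ev M.gen u ∈ R →
      L.CjA d K (H14.sub M.gen hs) := fun e l m => by
    rwa [Subgroup.eq_of_le_of_card_ge (e.trans_le (sup_le (hp c2 c3) ((H14.sub_le _).2 (List.forall_mem_singleton.2 m))))
      (cR.trans_le l)]
  obtain ⟨u, hu, m⟩ := (key R (hp c2 c3) g c4 c5).resolve_left (nA ▸ c6)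
  simp only [List.mem_cons, List.not_mem_nil, or_false] at hu
  rcases hu with rfl | rfl | rfl
  exacts [⟨d, .inl (fin ea (L.WU62.lowa M hN) m)⟩, ⟨d, .inr (.inl (fin eb (L.WU62.lowb M hN) m))⟩,
    ⟨d, .inr (.inr (fin ec (L.WU62.lowc M hN) m))⟩]

theorem lift3 {G X : Type*} [Group G] [Finite G] [Group X] (hZ : Subgroup.center X = ⊥)
    (cZ : Nat.card (Subgroup.center G) = 3) (hN : Nat.card (G ⧸ Subgroup.center G) = 9196830720) (hX : Nat.card X = 3265920)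
    {A B C : Subgroup (G ⧸ Subgroup.center G)} (h1 : Nonempty (A ≃* X) ∧ Nonempty (B ≃* X) ∧ Nonempty (C ≃* X))
    (h2 : (∀ g, ¬ CjA g A B) ∧ (∀ g, ¬ CjA g A C) ∧ ∀ g, ¬ CjA g B C)
    (h3 : ∀ K : Subgroup (G ⧸ Subgroup.center G), Nonempty (K ≃* X) → ∃ g, CjA g K A ∨ CjA g K B ∨ CjA g K C) :
    ∃ K₁ K₂ K₃ : Subgroup G, (∀ K ∈ [K₁, K₂, K₃], Nat.card (Subgroup.center K) = 3 ∧ Nonempty (K ⧸ Subgroup.center K ≃* X)) ∧
      (¬ ∃ g, CjA g K₁ K₂) ∧ (¬ ∃ g, CjA g K₁ K₃) ∧ (¬ ∃ g, CjA g K₂ K₃) ∧ ∀ K : Subgroup G, Nat.card (Subgroup.center K) = 3 →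
        Nonempty (K ⧸ Subgroup.center K ≃* X) → ∃ g, CjA g K K₁ ∨ CjA g K K₂ ∨ CjA g K K₃ := by
  let π := QuotientGroup.mk' (Subgroup.center G)
  have sj : Function.Surjective π := QuotientGroup.mk'_surjective _
  have mc : ∀ H, (Subgroup.comap π H).map π = H := Subgroup.map_comap_eq_self_of_surjective sj
  have kr : π.ker = _ := QuotientGroup.ker_mk' _
  have ex : ∀ {H : Subgroup (G ⧸ Subgroup.center G)}, Nonempty (H ≃* X) → Nat.card (Subgroup.center (Subgroup.comap π H)) = 3 ∧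
      Nonempty (Subgroup.comap π H ⧸ Subgroup.center (Subgroup.comap π H) ≃* X) := fun {H} e =>
    cZ ▸ (L.cen_ext hZ (kr.ge.trans (Subgroup.ker_le_comap π H))).1 ((mc H).symm ▸ e)
  have nc : ∀ {A B}, (∀ g, ¬ CjA g A B) → ¬ ∃ g, CjA g (A.comap π) (B.comap π) := fun h ⟨g, c⟩ => by
    have := c.map π
    rw [mc, mc] at this
    exact h _ this
  refine ⟨_, _, _, by simpa only [List.forall_mem_cons] using ⟨ex h1.1, ex h1.2.1, ex h1.2.2, H14.fa_nil⟩,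
    nc h2.1, nc h2.2.1, nc h2.2.2, fun K c i => ?_⟩
  have hK : Subgroup.center _ ≤ K := by
    have h1 := H17.card_sup_mul_card_inf (H := K) (N := Subgroup.center _) Subgroup.le_normalizer_of_normal
    have h2 := Subgroup.card_subgroup_dvd_card (K ⊔ Subgroup.center _)
    rw [Subgroup.card_eq_card_quotient_mul_card_subgroup (Subgroup.center K), c, L.card_iso i hX, cZ] at h1
    rw [Subgroup.card_eq_card_quotient_mul_card_subgroup (Subgroup.center G), hN, cZ] at h2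
    rcases (Nat.dvd_prime Nat.prime_three).1 (cZ ▸ Subgroup.card_dvd_of_le (inf_le_right (a := K))) with e | e
    · rw [e, mul_one] at h1
      rw [h1] at h2
      omega
    · exact Subgroup.eq_of_le_of_card_ge inf_le_right (cZ.trans e.symm).le ▸ inf_le_left
  obtain ⟨d, h⟩ := h3 _ ((L.cen_ext hZ hK).2 (c.trans cZ.symm) i)
  obtain ⟨d, rfl⟩ := sj d
  have fin : ∀ {R}, CjA (π d) (K.map π) R → CjA d K (R.comap π) := fun c1 => by
    rw [← (c1 : _ = _), (L.CjA.map π (rfl : L.CjA d K _) : _ = _), Subgroup.comap_map_eq_self]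
    · rfl
    · exact kr.le.trans fun z hz => ⟨z, hK hz, mul_inv_eq_iff_eq_mul.2 (Subgroup.mem_center_iff.1 hz d)⟩
  exact ⟨d, h.imp fin (.imp fin fin)⟩

end L
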