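import Cfsg.Agent.H15.TC2
import Cfsg.Prelude.Def_Spor_M

/-! Braid-move certificates for words in the generators of the graph `Y₅₅₅`. -/

set_option autoImplicit false

namespace L.YB
open H15

/-- the Coxeter matrix of `Y₅₅₅` -/
def lab (x y : ℕ) : ℕ := Nat.mod (Nat.shiftRight (nat_lit 0x7aaaaaaadeaaaaaab7aaaaaaadeaaaaaab6aaaabaa9eaaaaaab7aaaaaaadeaaaaaab7aaaaaaadaabaaaaa7aaaaaaadeaaaaaab7aaaaaaadeaaaaaab7aaeabaad)
  (Nat.mul 2 (Nat.add (Nat.mul 16 (Nat.mod x 16)) (Nat.mod y 16)))) 4

/-- rewriting at the head of `r`; `0`, `1` move the head, `2` applies a Coxeter relation -/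
def run : List ℕ → List ℕ → List ℕ → Bool
  | [], l, r => l.isEmpty && r.isEmpty
  | 0 :: s, l, x :: r => run s (x :: l) r
  | 1 :: s, x :: l, r => run s l (x :: r)
  | 2 :: s, l, x :: y :: r =>
    match lab x y, r with
    | 1, r => run s l r
    | 2, r => run s l (y :: x :: r)
    | 3, z :: r => Nat.beq z x && run s l (y :: x :: y :: r)
    | _, _ => false
  | _, _, _ => false

noncomputable def dq (x : ℕ) (r : List ℕ) : List ℕ :=
  Nat.rec (motive := fun _ => ℕ → List ℕ) (fun _ => r) (fun _ ih y => Nat.rec (motive := fun _ => List ℕ) r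
    (fun p _ => p :: ih (Nat.shiftRight y 2)) (Nat.land y 3)) 256 x

/-- `w` times conjugates of known relators reduces to the empty word -/
noncomputable def pf (kn : List (List ℕ)) (w : List ℕ) (c : List (List ℕ × ℕ) × List ℕ) : Bool :=
  run (c.2.foldr dq []) [] (w ++ c.1.flatMap fun p =>
    p.1 ++ cond (Nat.beq (p.2 % 2) 0) (kn.getD (p.2 / 2) []) (kn.getD (p.2 / 2) []).reverse ++ p.1.reverse)

noncomputable def pfs (kn : List (List ℕ)) (ws : List (List ℕ)) (cs : List (List (List ℕ × ℕ) × List ℕ)) : Bool :=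
  Nat.beq ws.length cs.length && (ws.zip cs).all fun p => pf kn p.1 p.2

def cm (y w : List ℕ) : List ℕ := w ++ y ++ w.reverse ++ y.reverse

def sb (W : List (List ℕ)) (w : List ℕ) : List ℕ := w.flatMap fun i => W.getD i []

def rep (n : ℕ) (w : List ℕ) : List ℕ := (List.replicate n w).flatten

variable {G : Type*} [Group G] {g : ℕ → G}

def Cox (g : ℕ → G) : Prop := ∀ x y, (g x * g y) ^ lab x y = 1

def Kn (g : ℕ → G) (kn : List (List ℕ)) : Prop := ∀ w ∈ kn, ev g w = 1

theorem ev_rep (n : ℕ) (w : List ℕ) : ev g (rep n w) = ev g w ^ n := by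
  induction n with
  | zero => exact (pow_zero _).symm
  | succ n ih => rw [pow_succ', ← ih, ← ev_append]; rfl

theorem ev_rev (h : ∀ x, g x * g x = 1) (w : List ℕ) : ev g w.reverse = (ev g w)⁻¹ := by
  simpa [invW] using ev_invW (gen := g) (gen' := g) (iv := id) (w := w) fun x _ => eq_inv_of_mul_eq_one_left (h x)

theorem ev_sb (W : List (List ℕ)) (w : List ℕ) : ev g (sb W w) = ev (fun i => ev g (W.getD i [])) w := by
  induction w with
  | nil => rfl
  | cons x w ih => rw [ev_cons, ← ih, ← ev_append]; rfl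

theorem Cox.sq (h : Cox g) (x : ℕ) : g x * g x = 1 := by
  have : ∀ y < 16, lab y y = 1 := by decide +kernel
  have e : lab x x = lab (x % 16) (x % 16) :=
    congrArg (fun t => Nat.mod (Nat.shiftRight _ (Nat.mul 2 (Nat.add (Nat.mul 16 t) t))) 4) (Nat.mod_mod x 16).symm
  simpa [e, this _ (Nat.mod_lt x (by norm_num))] using h x x

theorem Cox.run (h : Cox g) {s l r : List ℕ} (e : run s l r = true) : ev g l = ev g r := by
  have q : ∀ x, (g x)⁻¹ = g x := fun x => inv_eq_of_mul_eq_one_left (h.sq x)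
  fun_induction YB.run s l r with
  | case1 l r => simp only [Bool.and_eq_true, List.isEmpty_iff] at e; rw [e.1, e.2]
  | case2 s l x r ih => rw [ev_cons, ← ih e, ev_cons, ← mul_assoc, h.sq, one_mul]
  | case3 s x l r ih => rw [ev_cons, ih e, ev_cons, ← mul_assoc, h.sq, one_mul]
  | case4 s l x y r m ih =>
    have := h x y
    rw [m, pow_one] at this
    rw [ih e, ev_cons, ev_cons, ← mul_assoc, this, one_mul]
  | case5 s l x y r m ih =>
    have := h x y
    rw [m, pow_two, mul_eq_one_iff_eq_inv, mul_inv_rev, q, q] at this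
    rw [ih e, ev_cons, ev_cons, ev_cons, ev_cons, ← mul_assoc, ← mul_assoc, this]
  | case6 s l x y z r m ih =>
    have := h x y
    rw [m, show (g x * g y) ^ 3 = (g x * g y * g x) * (g y * g x * g y) by simp only [pow_three', mul_assoc],
      mul_eq_one_iff_eq_inv, mul_inv_rev, mul_inv_rev, q, q, ← mul_assoc] at this
    rw [Bool.and_eq_true] at e
    rw [ih e.2, Nat.eq_of_beq_eq_true e.1]
    simp only [ev_cons, ← mul_assoc, this]
  | case7 => cases e
  | case8 => cases e

theorem Cox.pfs (h : Cox g) {kn ws cs} (k : Kn g kn) (e : pfs kn ws cs = true) : Kn g ws := fun w hw => by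
  simp only [YB.pfs, Bool.and_eq_true, List.all_eq_true] at e
  obtain ⟨i, hi, rfl⟩ := List.getElem_of_mem hw
  have l := Nat.eq_of_beq_eq_true e.1
  have := h.run (e.2 (ws[i], cs[i]) (List.mem_iff_getElem.2 ⟨i, by simp; omega, by simp⟩))
  rw [ev_append] at this
  have k1 : ∀ j, ev g (kn.getD j []) = 1 := fun j => by
    rcases lt_or_ge j kn.length with a | a
    · rw [List.getD_eq_getElem _ _ a]; exact k _ (List.getElem_mem _)
    · rw [List.getD_eq_default _ _ a]; rfl
  generalize cs[i].1 = c at this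
  induction c using List.reverseRecOn with
  | nil => simpa using this.symm
  | append_singleton c p ih =>
    refine ih ?_
    rw [List.flatMap_append, ev_append, List.flatMap_singleton, ev_append, ev_append, ev_rev h.sq] at this
    cases hb : Nat.beq (p.2 % 2) 0 <;>
      simpa only [hb, cond, ev_rev h.sq, k1, inv_one, mul_one, mul_inv_cancel] using this

theorem Kn.app {a b} (h : Kn g a) (k : Kn g b) : Kn g (a ++ b) := List.forall_mem_append.2 ⟨h, k⟩

theorem Cox.cm (h : Cox g) {y w : List ℕ} : ev g (cm y w) = 1 ↔ ev g w ∈ Subgroup.centralizer {ev g y} := by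
  rw [YB.cm, ev_append, ev_append, ev_append, ev_rev h.sq, ev_rev h.sq, Subgroup.mem_centralizer_singleton_iff,
    mul_inv_eq_one, mul_inv_eq_iff_eq_mul]

/-- use of a coset enumeration over a centraliser -/
theorem Cox.tc (h : Cox g) {kn rels subs tg : List (List ℕ)} {cs} (k : Kn g kn) (W : List (List ℕ)) (y : List ℕ)
    (m : ∀ g' : ℕ → G, Kn g' rels → ∀ H : Subgroup G, (∀ w ∈ subs, ev g' w ∈ H) → ∀ w ∈ tg, ev g' w ∈ H)
    (e : YB.pfs kn (rels.map (sb W) ++ subs.map fun w => YB.cm y (sb W w)) cs = true) :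
    Kn (fun i => ev g (W.getD i [])) rels ∧ Kn g (tg.map fun w => YB.cm y (sb W w)) := by
  obtain ⟨a, b⟩ := List.forall_mem_append.1 (h.pfs k e)
  have a' : Kn (fun i => ev g (W.getD i [])) rels := fun w hw => (ev_sb W w).symm.trans (a _ (List.mem_map_of_mem hw))
  refine ⟨a', List.forall_mem_map.2 fun w hw => h.cm.2 ?_⟩
  rw [ev_sb]
  exact m _ a' _ (fun w hw => ev_sb (g := g) W w ▸ h.cm.1 (b _ (List.mem_map_of_mem hw))) w hw

/-- an affine plane of order three has no nontrivial representation by involutions -/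
theorem plane (q : ∀ i, g i * g i = 1) {x : G} {e d : ℕ} (k2 k3 k4 k5 : List ℕ) (hx : x * x = 1)
    (hb : x * (g e * x * g e) = g d * g e * x * (g e * g d))
    (h : ∀ p ∈ [(k2, []), (k3, []), (k4, [e]), (e :: k4, e :: k2), (e :: d :: k4, e :: d :: k3), (k5, [e, d]), (e :: k5, e :: k3),
      (e :: d :: k5, e :: d :: k2)], ev g (p.1 ++ p.2.reverse) ∈ Subgroup.centralizer {x}) : x = 1 := by
  have q' : ∀ x, (g x)⁻¹ = g x := fun x => inv_eq_of_mul_eq_one_left (q x)
  obtain ⟨X, hX⟩ : ∃ X : List ℕ → G, ∀ k, X k = (ev g k)⁻¹ * x * ev g k := ⟨_, fun _ => rfl⟩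
  have l : ∀ k, X k * X (e :: k) = X (e :: d :: k) := fun k => by
    simp only [hX, ev_cons, mul_inv_rev, q']
    calc _ = (ev g k)⁻¹ * (x * (g e * x * g e)) * ev g k := by group
      _ = _ := by rw [hb]; group
  have c : ∀ {a b}, ev g (a ++ b.reverse) ∈ Subgroup.centralizer {x} → X a = X b := fun {a b} hp => by
    rw [Subgroup.mem_centralizer_singleton_iff, ev_append, ev_rev q] at hp
    rw [hX, hX]
    calc _ = (ev g a)⁻¹ * (x * (ev g a * (ev g b)⁻¹)) * ev g b := by group
      _ = _ := by rw [← hp]; group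
  have x2 : ∀ k, X k * X k = 1 := fun k => by
    rw [hX, show ∀ a : G, a⁻¹ * x * a * (a⁻¹ * x * a) = a⁻¹ * (x * x) * a from fun a => by group, hx, mul_one, inv_mul_cancel]
  have l4 := l k4
  have l5 := l k5
  simp only [List.forall_mem_cons] at h
  obtain ⟨h1, h2, h3, h4, h5, h6, h7, h8, -⟩ := h
  rw [c h3, c h4, c h5, ← l k3, c h2] at l4
  rw [c h6, c h7, c h8, ← l k2, c h1, ← l [], mul_assoc, mul_right_inj] at l5
  rw [← l5, ← mul_assoc, x2, one_mul, eq_comm, mul_eq_right, hX] at l4
  simpa using l4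

end L.YB
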